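import Cfsg.Agent.KP2.Defs
import Cfsg.Agent.S4198

/-! Class numbers of the alternating and symmetric groups and of groups of small degree. -/

set_option autoImplicit false
set_option linter.unusedSectionVars false

namespace Cfsg.Lib.KP2

open Subgroup MulAction Finset Equiv Cfsg.Lib.KPerm

universe u v

theorem Alt_le {G H : Type*} [Group G] [Group H] [Finite G] (f : G →* H)
    (hf : Function.Surjective f) : Nat.card (ConjClasses H) ≤ Nat.card (ConjClasses G) :=
  Nat.card_le_card_of_surjective _ (ConjClasses.map_surjective hf)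

theorem Alt_card {G : Type*} [Group G] [Finite G] : Nat.card (ConjClasses G) ≤ Nat.card G :=
  Nat.card_le_card_of_surjective _ ConjClasses.mk_surjective

theorem Alt_rep {G : Type*} [Group G] (S : Subgroup G) {k : ℕ} (r : Fin k → G)
    (hr : ∀ i, r i ∈ S) (h : ∀ g ∈ S, ∃ i, ∃ c ∈ S, c * r i * c⁻¹ = g) :
    Nat.card (ConjClasses S) ≤ k := by
  have := Nat.card_le_card_of_surjective (fun i => ConjClasses.mk (⟨r i, hr i⟩ : S)) fun x => by
    obtain ⟨g, rfl⟩ := ConjClasses.mk_surjective x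
    obtain ⟨i, c, hc, e⟩ := h g.1 g.2
    exact ⟨i, ConjClasses.mk_eq_mk_iff_isConj.2 (isConj_iff.2 ⟨⟨c, hc⟩, Subtype.ext e⟩)⟩
  simpa using this

theorem Alt_S3 : Nat.card (ConjClasses (⊤ : Subgroup (Perm (Fin 3)))) ≤ 3 :=
  Alt_rep ⊤ ![1, swap 0 1, swap 0 1 * swap 1 2] (fun _ => mem_top _) (by
    have : ∀ g : Perm (Fin 3), ∃ i : Fin 3, ∃ c : Perm (Fin 3),
      c * ![1, swap 0 1, swap 0 1 * swap 1 2] i * c⁻¹ = g := by decide +kernel
    intro g _
    obtain ⟨i, c, e⟩ := this g
    exact ⟨i, c, mem_top _, e⟩)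

theorem Alt_S4 : Nat.card (ConjClasses (⊤ : Subgroup (Perm (Fin 4)))) ≤ 5 :=
  Alt_rep ⊤ ![1, swap 0 1, swap 0 1 * swap 1 2, swap 0 1 * swap 2 3, swap 0 1 * swap 1 2 * swap 2 3]
    (fun _ => mem_top _) (by
    have : ∀ g : Perm (Fin 4), ∃ i : Fin 5, ∃ c : Perm (Fin 4),
      c * ![1, swap 0 1, swap 0 1 * swap 1 2, swap 0 1 * swap 2 3,
        swap 0 1 * swap 1 2 * swap 2 3] i * c⁻¹ = g := by decide +kernel
    intro g _
    obtain ⟨i, c, e⟩ := this g
    exact ⟨i, c, mem_top _, e⟩)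

theorem Alt_A4 : Nat.card (ConjClasses (alternatingGroup (Fin 4))) ≤ 4 :=
  Alt_rep _ ![1, swap 0 1 * swap 1 2, swap 1 2 * swap 0 1, swap 0 1 * swap 2 3]
    (by simp only [Perm.mem_alternatingGroup]; decide +kernel) (by
    simp only [Perm.mem_alternatingGroup]
    decide +kernel)

theorem Alt_fin (n : ℕ) (hn : 3 ≤ n) :
    2 * Nat.card (ConjClasses (alternatingGroup (Fin n))) ≤ 2 ^ n ∧
      2 * Nat.card (ConjClasses (Perm (Fin n))) ≤ 2 ^ n := by
  have top : ∀ m, Nat.card (ConjClasses (Perm (Fin m))) ≤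
      Nat.card (ConjClasses (⊤ : Subgroup (Perm (Fin m)))) := fun m =>
    Alt_le (topEquiv (G := Perm (Fin m))).toMonoidHom topEquiv.surjective
  by_cases h5 : 5 ≤ n
  · obtain ⟨h1, h2⟩ := Cfsg.Agent.S4198.result n h5
    obtain ⟨m, rfl⟩ : ∃ m, n = m + 2 := ⟨n - 2, by omega⟩
    rw [Nat.add_sub_cancel] at h2
    rw [pow_add]
    omega
  · obtain rfl | rfl : n = 3 ∨ n = 4 := by omega
    · have h1 := Alt_card (G := alternatingGroup (Fin 3))
      have h2 := two_mul_nat_card_alternatingGroup (α := Fin 3)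
      rw [Nat.card_perm, Nat.card_fin] at h2
      have h3 := (top 3).trans Alt_S3
      change _ = 6 at h2
      omega
    · have h1 := Alt_A4
      have h3 := (top 4).trans Alt_S4
      omega

theorem alt {Ω : Type u} [Fintype Ω] [DecidableEq Ω] [Nonempty Ω] (S : Subgroup (Perm Ω))
    (h : Fintype.card Ω ≤ 4 ∨ alternatingGroup Ω ≤ S) :
    2 * Nat.card (ConjClasses S) ≤ 2 ^ Fintype.card Ω := by
  have h0 : 1 ≤ Fintype.card Ω := Fintype.card_pos
  have h1 := Alt_card (G := S)
  have h2 := S.index_mul_card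
  rw [Nat.card_perm, Nat.card_eq_fintype_card (α := Ω)] at h2
  have h3 : S.index ≠ 0 := index_ne_zero_of_finite
  by_cases hn : Fintype.card Ω ≤ 2
  · have h4 : Nat.card S ≤ (Fintype.card Ω).factorial := h2 ▸ Nat.le_mul_of_pos_left _ (by omega)
    obtain e | e : Fintype.card Ω = 1 ∨ Fintype.card Ω = 2 := by omega
    all_goals
      rw [e] at h4 ⊢
      norm_num [Nat.factorial] at h4
      omega
  by_cases hA : alternatingGroup Ω ≤ S
  · have : Nontrivial Ω := Fintype.one_lt_card_iff_nontrivial.1 (by omega)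
    obtain ⟨a1, a2⟩ := Alt_fin (Fintype.card Ω) (by omega)
    let e := Fintype.equivFin Ω
    have h4 : S.index ∣ 2 := alternatingGroup.index_eq_two (α := Ω) ▸ index_dvd_of_le hA
    obtain h5 | h5 := (Nat.dvd_prime Nat.prime_two).1 h4
    · rw [index_eq_one.1 h5]
      let f : Perm (Fin (Fintype.card Ω)) ≃* (⊤ : Subgroup (Perm Ω)) :=
        e.symm.permCongrHom.trans topEquiv.symm
      have := Alt_le f.toMonoidHom f.surjective
      omega
    · rw [Perm.eq_alternatingGroup_of_index_eq_two h5]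
      have := Alt_le e.symm.altCongrHom.toMonoidHom e.symm.altCongrHom.surjective
      omega
  · have h4 : 3 ≤ S.index := by
      by_contra H
      exact hA (Perm.alternatingGroup_le_of_index_le_two (by omega))
    have h5 : 3 * Nat.card S ≤ (Fintype.card Ω).factorial := h2 ▸ Nat.mul_le_mul_right _ h4
    have h6 := h.resolve_right hA
    obtain e | e : Fintype.card Ω = 3 ∨ Fintype.card Ω = 4 := by omega
    all_goals
      rw [e] at h5 ⊢
      norm_num [Nat.factorial] at h5
      omega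

end Cfsg.Lib.KP2
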