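import Cfsg.Agent.KP2.Defs
import Cfsg.Agent.Trans.OrbitTransfer
import Cfsg.Agent.Solv.PGroupBasic

/-! An orbit of a `p`-group splits into `p` orbits of a subgroup of index `p`. -/

set_option autoImplicit false
set_option linter.unusedSectionVars false

namespace Cfsg.Lib.KP2

open Subgroup MulAction Finset Equiv Cfsg.Lib.KPerm

universe u v

theorem Blk_sub {G : Type*} [Group G] [Finite G] {p : ℕ} (hp : p.Prime) {R H : Subgroup G}
    (hR : IsPGroup p R) (h : ¬ R ≤ H) : ∃ R0 ≤ R, R ≤ normalizer (R0 : Set G) ∧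
      R0.relIndex R = p ∧ H ⊓ R ≤ R0 := by
  have := Fact.mk hp
  obtain ⟨m, hm⟩ := hR.exists_card_eq
  obtain ⟨n, hn⟩ := (hR.to_subgroup (H.subgroupOf R)).exists_card_eq
  have lt : n < m := (Nat.pow_lt_pow_iff_right hp.one_lt).1 (by
    rw [← hm, ← hn, ← Subgroup.card_top (G := R)]
    exact Solv.PG.card_lt_card_of_lt (lt_top_iff_ne_top.2 (mt subgroupOf_eq_top.1 h)))
  obtain ⟨m, rfl⟩ : ∃ k, m = k + 1 := ⟨m - 1, by omega⟩
  obtain ⟨K, h1, h2⟩ := Sylow.exists_subgroup_card_pow_prime_le p (m := m)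
    (hm ▸ pow_dvd_pow p m.le_succ) (H.subgroupOf R) hn (by omega)
  have h3 : K.index = p := Nat.eq_of_mul_eq_mul_left (pow_pos hp.pos m) (by
    rw [← pow_succ, ← hm, ← h1, K.card_mul_index])
  have h4 : K.Normal := normal_of_index_eq_minFac_card (by
    rw [h3, hm, hp.pow_minFac m.succ_ne_zero])
  have h5 : (K.map R.subtype).subgroupOf R = K :=
    comap_map_eq_self_of_injective R.subtype_injective K
  refine ⟨K.map R.subtype, map_subtype_le K, ?_, by rw [relIndex, h5, h3],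
    fun x hx => ⟨⟨x, hx.2⟩, h2 hx.1, rfl⟩⟩
  rw [← normal_subgroupOf_iff_le_normalizer (map_subtype_le K), h5]
  exact h4

variable {Ω : Type u} [Fintype Ω] [DecidableEq Ω]

theorem Blk_os (M : Subgroup (Perm Ω)) (β : Ω) :
    os M β = (stabilizer (Perm Ω) β).relIndex M := by
  rw [os, Nat.card_coe_set_eq, ← index_stabilizer]; rfl

theorem Blk_fin (M : Subgroup (Perm Ω)) (ω : Ω) : ∃ O : Finset Ω,
    (∀ β, β ∈ O ↔ ∃ r ∈ M, r ω = β) ∧ ∀ β ∈ O, os M β = O.card := by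
  classical
  have k : ∀ β, β ∈ univ.filter (fun β => ∃ r ∈ M, r ω = β) ↔ β ∈ orbit M ω := fun β => by
    rw [mem_filter_univ]
    exact ⟨fun ⟨r, hr, e⟩ => ⟨⟨r, hr⟩, e⟩, fun ⟨r, e⟩ => ⟨r.1, r.2, e⟩⟩
  refine ⟨_, fun β => mem_filter_univ β, fun β hβ => ?_⟩
  rw [os, orbit_eq_iff.2 ((k β).1 hβ)]
  exact Nat.subtype_card _ k

theorem exists_blk {Ω : Type u} [Fintype Ω] [DecidableEq Ω] {p : ℕ} (hp : p.Prime)
    {R : Subgroup (Perm Ω)} (hR : IsPGroup p R) {ω : Ω} (h : ∃ y ∈ R, y ω ≠ ω) :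
    ∃ (R0 : Subgroup (Perm Ω)) (O B : Finset Ω), Blk p R R0 O B ∧ ω ∈ O ∧
      ∀ T : Finset Ω, Iv R T → ω ∈ T → O ⊆ T := by
  have := Fact.mk hp
  obtain ⟨R0, le, nm, ix, st⟩ := Blk_sub hp hR (H := stabilizer (Perm Ω) ω)
    fun e => let ⟨y, hy, k⟩ := h; k (e hy)
  obtain ⟨O, hO, osO⟩ := Blk_fin R ω
  obtain ⟨B, hB, osB⟩ := Blk_fin R0 ω
  have ωO : ω ∈ O := (hO ω).2 ⟨1, one_mem _, rfl⟩
  have ωB : ω ∈ B := (hB ω).2 ⟨1, one_mem _, rfl⟩
  have ivO : Iv R O := fun y hy β hβ => by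
    obtain ⟨r, hr, rfl⟩ := (hO β).1 hβ
    exact (hO _).2 ⟨y * r, mul_mem hy hr, rfl⟩
  have BO : B ⊆ O := fun β hβ => let ⟨r, hr, e⟩ := (hB β).1 hβ; (hO β).2 ⟨r, le hr, e⟩
  have fpf : ∀ y ∈ R, y ∉ R0 → ∀ β ∈ O, y β ≠ β := fun y hy y0 β hβ e => by
    obtain ⟨r, hr, rfl⟩ := (hO β).1 hβ
    refine y0 ((mem_normalizer_iff''.1 (nm hr) y).2
      (st ⟨?_, R.mul_mem (R.mul_mem (R.inv_mem hr) hy) hr⟩))
    change r⁻¹ (y (r ω)) = ω
    rw [e]; exact r.symm_apply_apply ω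
  have key : ∀ β ∈ O, os R β = os R0 β * p := fun β hβ => by
    have e : stabilizer (Perm Ω) β ⊓ R = stabilizer (Perm Ω) β ⊓ R0 :=
      le_antisymm (fun y hy => ⟨hy.1, by_contra fun k => fpf y hy.2 k β hβ hy.1⟩)
        (inf_le_inf_left _ le)
    rw [Blk_os, Blk_os, ← inf_relIndex_right, e, ← inf_relIndex_right _ R0, ← ix,
      relIndex_mul_relIndex _ _ _ inf_le_right le]
  have cO : O.card = p * B.card := by rw [← osO ω ωO, key ω ωO, osB ω ωB, mul_comm]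
  have pw : ∀ y ∈ R, y ∉ R0 → ∀ r ∈ R, ∃ i < p, (y ^ i)⁻¹ * r ∈ R0 := fun y hy y0 =>
    (Trans.exists_pow_of_relIndex_prime nm ix hy y0).1
  have sj : ∀ y ∈ R, y ∉ R0 → ∀ β ∈ O, ∃ i < p, ∃ b ∈ B, (y ^ i) b = β := fun y hy y0 β hβ => by
    obtain ⟨r, hr, rfl⟩ := (hO β).1 hβ
    obtain ⟨i, hi, e⟩ := pw y hy y0 r hr
    exact ⟨i, hi, _, (hB _).2 ⟨_, e, rfl⟩, by rw [← Perm.mul_apply, mul_inv_cancel_left]⟩
  have cm : ∀ y ∈ R, ∀ a, Cm O a y → ∀ b ∈ O, ∀ i : ℕ, a ((y ^ i) b) = (y ^ i) (a b) :=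
    fun y hy a c b hb i => by
      induction i with
      | zero => rfl
      | succ i ih =>
        rw [pow_succ', Perm.mul_apply, Perm.mul_apply, c _ (ivO _ (pow_mem hy i) b hb), ih]
  refine ⟨R0, O, B, ⟨le, ?_, fun M hM k => ?_, ivO, fun y hy β hβ => ?_, BO, ⟨ω, ωB⟩, cO, osO,
    fun β hβ => ?_, ?_, fpf, fun y hy y0 r hr => (pw y hy y0 r hr).imp fun _ k => k.2,
    fun y hy y0 a a' c c' e β hβ => ?_, fun y hy y0 a ha c A v => ?_⟩, ωO, fun T hT k β hβ => ?_⟩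
  · refine Solv.PG.card_lt_card_of_lt (lt_of_le_of_ne le fun e => hp.one_lt.ne ?_)
    rw [← ix, e, relIndex_self]
  · have : (R0.subgroupOf R).Normal := normal_subgroupOf_of_le_normalizer nm
    have h1 : R0.relIndex M ∣ p := by
      rw [← relIndex_subgroupOf hM, ← ix]
      exact relIndex_dvd_index_of_normal _ _
    rw [← Solv.PG.relIndex_mul_card_inf R0 M, inf_comm,
      ((Nat.dvd_prime hp).1 h1).resolve_left (mt relIndex_eq_one.1 k)]
  · obtain ⟨r, hr, rfl⟩ := (hB β).1 hβ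
    exact (hB _).2 ⟨y * r, mul_mem hy hr, rfl⟩
  · refine Nat.eq_of_mul_eq_mul_right hp.pos ?_
    rw [← key β hβ, osO β hβ, cO, mul_comm]
  · rw [← osB ω ωB]
    exact (hR.to_le le).card_orbit ω
  · obtain ⟨i, -, b, hb, rfl⟩ := sj y hy y0 β hβ
    rw [cm y hy a c b (BO hb), cm y hy a' c' b (BO hb), e b hb]
  · have e : (range p ×ˢ B).image (fun q : ℕ × Ω => (y ^ q.1) q.2) = O := by
      ext β
      rw [mem_image]
      constructor
      · rintro ⟨q, hq, rfl⟩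
        exact ivO _ (pow_mem hy _) _ (BO (mem_product.1 hq).2)
      · intro hβ
        obtain ⟨i, hi, b, hb, e⟩ := sj y hy y0 β hβ
        exact ⟨(i, b), mem_product.2 ⟨mem_range.2 hi, hb⟩, e⟩
    have inj := injOn_of_card_image_eq (s := range p ×ˢ B)
      (f := fun q : ℕ × Ω => (y ^ q.1) q.2) (by rw [e, cO, card_product, card_range])
    rw [Fw, ← e, prod_image inj, prod_product, Fw]
    refine (prod_congr rfl fun i _ => prod_congr rfl fun b hb =>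
      (?_ : _ = if a b = b then A else v)).trans ?_
    · simp only [cm y hy a c b (BO hb), EmbeddingLike.apply_eq_iff_eq]
    · rw [prod_const, card_range, ← prod_pow]
      exact prod_congr rfl fun b _ => ite_pow _ _ _ _
  · obtain ⟨r, hr, rfl⟩ := (hO β).1 hβ
    exact hT r hr ω k

end Cfsg.Lib.KP2
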