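import Cfsg.Agent.KP2.Step

/-! The class-counting step. -/

set_option autoImplicit false
set_option linter.unusedSectionVars false

namespace Cfsg.Lib.KP2

open Subgroup MulAction Finset Equiv Cfsg.Lib.KPerm

universe u v

theorem CS.card_sm_rep {H : Type v} [Group H] [Finite H] {p : ℕ} [hp : Fact p.Prime]
    (P : Sylow p H) {ι : Type*} [Fintype ι] (r : ι → H)
    (hr : ∀ x ∈ (P : Subgroup H), ∃ i a, a * x * a⁻¹ = r i) :
    Nat.card (Sm (p + 1) H) ≤ ∑ i, Nat.card (Sm p (centralizer ({r i} : Set H))) := by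
  rw [← Nat.card_sigma]
  let f : (Σ i : ι, Sm p (centralizer ({r i} : Set H))) → ConjClasses H :=
    fun y => ConjClasses.mk (r y.1 * (y.2.2.choose : H))
  refine le_trans (Nat.card_mono (Set.toFinite _) (t := Set.range f) ?_)
    (Nat.card_le_card_of_surjective _ Set.rangeFactorization_surjective)
  rintro _ ⟨g, rfl, hg⟩
  obtain ⟨x, -, y, hy, rfl, hc, ⟨k, hk⟩, hpy⟩ :=
    Char.Parts.exists_pPart_mul_pPrimePart hp.out (isOfFinOrder_of_finite g)
  have hz : IsPGroup p (zpowers x) := IsPGroup.of_card (n := k) (by rw [Nat.card_zpowers, hk])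
  obtain ⟨Q, hQ⟩ := hz.exists_le_sylow
  obtain ⟨a0, ha⟩ := exists_smul_eq H Q P
  have hx : a0 * x * a0⁻¹ ∈ (P : Subgroup H) := by
    rw [← ha]
    exact ⟨x, hQ (mem_zpowers x), rfl⟩
  obtain ⟨i, a1, hi⟩ := hr _ hx
  obtain ⟨a, hi⟩ : ∃ a : H, a * x * a⁻¹ = r i := ⟨a1 * a0, by rw [← hi]; group⟩
  have hy' : a * y * a⁻¹ ∈ centralizer ({r i} : Set H) := by
    rw [mem_centralizer_singleton_iff, ← hi]
    calc a * y * a⁻¹ * (a * x * a⁻¹) = a * (y * x) * a⁻¹ := by group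
      _ = a * x * a⁻¹ * (a * y * a⁻¹) := by rw [← hc.eq]; group
  have hm : ConjClasses.mk (⟨_, hy'⟩ : centralizer ({r i} : Set H)) ∈
      Sm p (centralizer ({r i} : Set H)) := by
    refine ⟨_, rfl, fun q hq hd => ?_⟩
    rw [← Subgroup.orderOf_coe] at hd
    change q ∣ orderOf (MulAut.conj a y) at hd
    rw [MulEquiv.orderOf_eq] at hd
    have h1 := hg q hq (hd.trans (orderOf_dvd_of_mem_zpowers hy))
    have h2 : q ≠ p := fun e => hpy (e ▸ hd)
    omega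
  refine ⟨⟨i, ⟨_, hm⟩⟩, ?_⟩
  obtain ⟨c, hc'⟩ := isConj_iff.1 (ConjClasses.mk_eq_mk_iff_isConj.1 hm.choose_spec.1)
  refine ConjClasses.mk_eq_mk_iff_isConj.2 (isConj_iff.2 ⟨a⁻¹ * c, ?_⟩)
  have h1 : (c : H) * r i = r i * c := mem_centralizer_singleton_iff.1 c.2
  have h2 : (c : H) * (hm.choose : H) * (c : H)⁻¹ = a * y * a⁻¹ := congrArg Subtype.val hc'
  change a⁻¹ * c * (r i * (hm.choose : H)) * (a⁻¹ * c)⁻¹ = x * y
  calc a⁻¹ * c * (r i * (hm.choose : H)) * (a⁻¹ * c)⁻¹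
      = a⁻¹ * (c * r i) * (c : H)⁻¹ * (c * (hm.choose : H) * (c : H)⁻¹) * a := by group
    _ = a⁻¹ * r i * (a * y * a⁻¹) * a := by rw [h1, h2]; group
    _ = a⁻¹ * (a * x * a⁻¹) * (a * y * a⁻¹) * a := by rw [hi]
    _ = x * y := by group

theorem CS.sum_cls {P : Type*} [Group P] [Fintype P] [DecidableEq P] [Fintype (ConjClasses P)]
    (f : P → ℝ)
    (hf : ∀ g x, f (g * x * g⁻¹) = f x) (r : ConjClasses P → P)
    (hr : ∀ c, ConjClasses.mk (r c) = c) :
    (Nat.card P : ℝ) * ∑ c, f (r c) = ∑ a, ∑ b, if a * b = b * a then f a else 0 := by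
  classical
  rw [mul_sum, ← sum_fiberwise (s := (univ : Finset P))
    (g := (ConjClasses.mk : P → ConjClasses P))]
  refine sum_congr rfl fun c _ => ?_
  have hmem : ∀ a, a ∈ univ.filter (fun a : P => ConjClasses.mk a = c) ↔
      ∃ g, g * r c * g⁻¹ = a := fun a => by
    rw [mem_filter, ← isConj_iff, ← ConjClasses.mk_eq_mk_iff_isConj, hr]
    simp [eq_comm]
  rw [Nat.card_eq_fintype_card, ← card_univ,
    card_eq_sum_card_fiberwise (f := fun g : P => g * r c * g⁻¹) (s := univ)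
      (t := univ.filter (fun a : P => ConjClasses.mk a = c))
      (fun g _ => mem_coe.2 ((hmem _).2 ⟨g, rfl⟩)), Nat.cast_sum, sum_mul]
  refine sum_congr rfl fun a ha => ?_
  obtain ⟨g0, rfl⟩ := (hmem a).1 ha
  rw [← sum_filter, sum_const, nsmul_eq_mul, hf]
  congr 2
  refine card_nbij' (fun g => g * g0⁻¹) (fun b => b * g0) ?_ ?_ ?_ ?_
  · intro g hg
    have hg := (mem_filter.1 (mem_coe.1 hg)).2
    refine mem_coe.2 (mem_filter.2 ⟨mem_univ _, ?_⟩)
    calc g0 * r c * g0⁻¹ * (g * g0⁻¹) = g * r c * g⁻¹ * (g * g0⁻¹) := by rw [hg]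
      _ = g * g0⁻¹ * (g0 * r c * g0⁻¹) := by group
  · intro b hb
    have hb := (mem_filter.1 (mem_coe.1 hb)).2
    refine mem_coe.2 (mem_filter.2 ⟨mem_univ _, ?_⟩)
    calc b * g0 * r c * (b * g0)⁻¹ = b * (g0 * r c * g0⁻¹) * b⁻¹ := by group
      _ = g0 * r c * g0⁻¹ := by rw [← hb]; group
  · intro g _; simp
  · intro g _; simp

theorem CS.fw_conj {Ω : Type u} [Fintype Ω] [DecidableEq Ω] (A v : ℝ) (g x : Perm Ω) :
    Fw A v univ (g * x * g⁻¹) = Fw A v univ x := by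
  unfold Fw
  rw [← Equiv.prod_comp g]
  refine prod_congr rfl fun ω _ => ?_
  simp [Perm.mul_apply]

theorem CS.zc_eq {Ω : Type u} [Fintype Ω] [DecidableEq Ω] (A v : ℝ) (R : Subgroup (Perm Ω))
    [Fintype R] [DecidableEq R] : Zc A v univ R 1 1 = ∑ a : R, ∑ b : R,
      if a * b = b * a then Fw A v univ (a : Perm Ω) else 0 := by
  classical
  unfold Zc
  rw [sum_subtype (p := (· ∈ R)) _ (fun y => by simp)]
  refine sum_congr rfl fun a _ => ?_
  rw [sum_subtype (p := (· ∈ R)) _ (fun y => by simp)]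
  refine sum_congr rfl fun b _ => ?_
  rw [one_mul, one_mul]
  refine if_congr ⟨fun hc => Subtype.ext (Equiv.ext fun ω => hc ω (mem_univ _)),
    fun hc ω _ => ?_⟩ rfl rfl
  exact congrArg (fun z : R => (z : Perm Ω) ω) hc

theorem CS.zc_cls {Ω : Type u} [Fintype Ω] [DecidableEq Ω] (A v : ℝ) (R : Subgroup (Perm Ω))
    [Fintype (ConjClasses R)] (r : ConjClasses R → R) (hr : ∀ c, ConjClasses.mk (r c) = c) :
    (Nat.card R : ℝ) * ∑ c, Fw A v univ (r c : Perm Ω) = Zc A v univ R 1 1 := by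
  have i1 : Fintype R := Fintype.ofFinite R
  have i2 : DecidableEq R := Classical.decEq _
  have h1 := @CS.zc_eq Ω _ _ A v R i1 i2
  have hf : ∀ g y : R, Fw A v univ ((g * y * g⁻¹ : R) : Perm Ω) = Fw A v univ (y : Perm Ω) :=
    fun g y => by
      rw [Subgroup.coe_mul, Subgroup.coe_mul, Subgroup.coe_inv]; exact CS.fw_conj A v _ _
  obtain ⟨F, hF⟩ : ∃ F : R → ℝ, ∀ a, F a = Fw A v univ (a : Perm Ω) := ⟨_, fun _ => rfl⟩
  simp only [← hF] at h1 hf ⊢
  rw [h1]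
  exact CS.sum_cls F hf r hr

theorem Bd1.cs {p : ℕ} (hp : p.Prime) {A v : ℝ} {W : ℕ → ℝ} (h : Bd1.{u, v} p fun n => A ^ n)
    (hA : 0 ≤ A) (hv : 1 ≤ v) (hAv : A ≤ v ^ p)
    (hK : ∀ (Ω : Type u) [Fintype Ω] [DecidableEq Ω] (R : Subgroup (Perm Ω)), IsPGroup p R →
      Zc A v univ R 1 1 ≤ Nat.card R * W (Fintype.card Ω)) : Bd1.{u, v} (p + 1) W := by
  intro Ω _ _ H _ _ ρ hρ
  have := Fact.mk hp
  obtain ⟨P⟩ : Nonempty (Sylow p H) := inferInstance
  have hinj := inj_sylow ρ (hρ p hp (by omega)) P.isPGroup'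
  have hRp : IsPGroup p (ρ.comp (P : Subgroup H).subtype).range :=
    P.isPGroup'.of_surjective (MonoidHom.ofInjective hinj).toMonoidHom
      (MonoidHom.ofInjective hinj).surjective
  obtain ⟨R, hR⟩ : ∃ R, R = (ρ.comp (P : Subgroup H).subtype).range := ⟨_, rfl⟩
  rw [← hR] at hRp
  have hm : ∀ y : Perm Ω, y ∈ R ↔ ∃ t : (P : Subgroup H), ρ t = y := fun y => by
    rw [hR]; rfl
  have hi : ∀ s t : (P : Subgroup H), ρ s = ρ t → s = t := fun s t e => hinj e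
  have := Fintype.ofFinite (ConjClasses R)
  choose r hr using fun c : ConjClasses R => ConjClasses.mk_surjective c
  choose x hx using fun c : ConjClasses R => (hm _).1 (r c).2
  have h1 := CS.card_sm_rep P (fun c => (x c : H)) fun y hy => by
    let y' : R := ⟨ρ y, (hm _).2 ⟨⟨y, hy⟩, rfl⟩⟩
    obtain ⟨s, hs⟩ := isConj_iff.1 (ConjClasses.mk_eq_mk_iff_isConj.1
      (hr (ConjClasses.mk y')).symm)
    obtain ⟨t, ht⟩ := (hm _).1 s.2
    refine ⟨ConjClasses.mk y', t, ?_⟩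
    have : t * ⟨y, hy⟩ * t⁻¹ = x (ConjClasses.mk y') := hi _ _ (by
      rw [hx, ← hs]
      change ρ ((t : H) * y * (t : H)⁻¹) = (s : Perm Ω) * ρ y * (s : Perm Ω)⁻¹
      rw [map_mul, map_mul, map_inv, ht])
    exact congrArg Subtype.val this
  have h2 : ∀ c, (Nat.card (Sm p (centralizer ({(x c : H)} : Set H))) : ℝ) ≤
      Fw A v univ (r c : Perm Ω) := by
    intro c
    obtain ⟨k, hk⟩ := P.isPGroup' (x c)
    have hk' : (x c : H) ^ p ^ k = 1 := by rw [← Subgroup.coe_pow, hk]; rfl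
    refine (h.cen hp ρ (fun q hq hl => hρ q hq (by omega)) hk').trans ?_
    rw [← hx c]
    exact pow_cyc_le (k := k) (by rw [← map_pow, hk', map_one]) hA hv hAv
  have h5 := hK Ω R hRp
  rw [← CS.zc_cls A v R r hr] at h5
  have hpos : (0 : ℝ) < Nat.card R := Nat.cast_pos.2 Nat.card_pos
  calc (Nat.card (Sm (p + 1) H) : ℝ)
      ≤ ∑ c, (Nat.card (Sm p (centralizer ({(x c : H)} : Set H))) : ℝ) := by exact_mod_cast h1
    _ ≤ ∑ c, Fw A v univ (r c : Perm Ω) := sum_le_sum fun c _ => h2 c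
    _ ≤ W (Fintype.card Ω) := le_of_mul_le_mul_left h5 hpos

end Cfsg.Lib.KP2
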