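import Cfsg.Agent.KP2.Defs
import Cfsg.Agent.S0713

/-! Conjugacy classes of permutation groups: supports of `p`-elements and crude bounds. -/

set_option autoImplicit false
set_option linter.unusedSectionVars false

namespace Cfsg.Lib.KP2

open Subgroup MulAction Finset Equiv Cfsg.Lib.KPerm

universe u v

namespace Cr

variable {Ω : Type u} [Fintype Ω] [DecidableEq Ω] {p : ℕ} {P : Subgroup (Perm Ω)} {a : Perm Ω}

theorem pw (hP : IsPGroup p P) (ha : a ∈ P) : ∃ k, a ^ p ^ k = 1 := by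
  obtain ⟨k, hk⟩ := hP ⟨a, ha⟩
  exact ⟨k, congrArg Subtype.val hk⟩

theorem dvd_mem (hp : p.Prime) {k : ℕ} (h : a ^ p ^ k = 1) {n : ℕ} (hn : n ∈ a.cycleType) :
    p ∣ n := by
  obtain ⟨j, -, rfl⟩ := (Nat.dvd_prime_pow hp).1
    ((Perm.dvd_of_mem_cycleType hn).trans (orderOf_dvd_of_pow_eq_one h))
  have := Perm.two_le_of_mem_cycleType hn
  rcases j with _ | j
  · simp at this
  · exact dvd_pow_self p (by omega)

theorem dvd (hp : p.Prime) {k : ℕ} (h : a ^ p ^ k = 1) : p ∣ a.support.card := by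
  rw [← Perm.sum_cycleType]
  exact Multiset.dvd_sum fun n hn => dvd_mem hp h hn

theorem le (hp : p.Prime) {k : ℕ} (h : a ^ p ^ k = 1) (h1 : a ≠ 1) : p ≤ a.support.card :=
  Nat.le_of_dvd (lt_of_lt_of_le two_pos (Perm.one_lt_card_support_of_ne_one h1)) (dvd hp h)

theorem cyc (hp : p.Prime) {k : ℕ} (h : a ^ p ^ k = 1) (h1 : a ≠ 1) (h2 : a.support.card ≤ p) :
    a.IsCycle := by
  have h3 := Multiset.card_nsmul_le_sum (s := a.cycleType) (a := p) fun n hn =>
    Nat.le_of_dvd (lt_of_lt_of_le two_pos (Perm.two_le_of_mem_cycleType hn)) (dvd_mem hp h hn)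
  rw [Perm.sum_cycleType, smul_eq_mul] at h3
  have h4 := Perm.card_cycleType_pos.2 h1
  have h5 := hp.pos
  refine Perm.card_cycleType_eq_one.1 ?_
  by_contra h6
  have : 2 ≤ Multiset.card a.cycleType := by omega
  nlinarith

theorem card_cyc (hp : p.Prime) {k : ℕ} (h : a ^ p ^ k = 1) {j : ℕ} (hj : j * p ≤ a.support.card) :
    Nat.card (Cyc a) ≤ Fintype.card Ω - j * (p - 1) := by
  have := Fact.mk hp
  have h1 := pow_cyc_le h (A := 2 ^ p) (v := 2) (by positivity) one_le_two le_rfl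
  have e1 : (univ.filter fun ω => ¬ a ω = ω) = a.support := by ext ω; simp
  have e2 := card_filter_add_card_filter_not (s := univ) fun ω => a ω = ω
  rw [prod_ite, prod_const, prod_const, ← pow_mul, ← pow_mul, ← pow_add, e1,
    pow_le_pow_iff_right₀ one_lt_two] at h1
  rw [e1, card_univ] at e2
  obtain ⟨t, ht⟩ := dvd hp h
  rw [ht] at h1 e2 hj
  rw [← mul_add] at h1
  have h2 := Nat.le_of_mul_le_mul_left h1 hp.pos
  have h3 : j ≤ t := Nat.le_of_mul_le_mul_left (by rwa [mul_comm]) hp.pos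
  obtain ⟨q, rfl⟩ : ∃ q, p = q + 1 := ⟨p - 1, by have := hp.pos; omega⟩
  have h4 := Nat.mul_le_mul_right q h3
  rw [Nat.add_sub_cancel]
  have h5 : (q + 1) * t = t * q + t := by ring
  omega

open Classical in
theorem sum_le' {W : ℕ → ℝ} (hW : Monotone W) (hW0 : 0 ≤ W 0) {e m : ℕ} (h1 : Nat.card P ≤ p ^ e)
    (h2 : ∀ x ∈ P, x ≠ 1 → Nat.card (Cyc x) ≤ m) :
    ∑ x ∈ univ.filter (fun x => x ∈ P ∧ x ≠ 1), W (Nat.card (Cyc x)) ≤ ((p : ℝ) ^ e - 1) * W m := by
  refine (sum_le_card_nsmul _ _ (W m) fun x hx =>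
    hW (h2 x (mem_filter.1 hx).2.1 (mem_filter.1 hx).2.2)).trans ?_
  rw [nsmul_eq_mul]
  refine mul_le_mul_of_nonneg_right ?_ (hW0.trans (hW (Nat.zero_le m)))
  have e1 : univ.filter (fun x => x ∈ P ∧ x ≠ 1) = (univ.filter (· ∈ P)).erase 1 := by
    ext x; simp [and_comm]
  have e2 := card_erase_add_one (s := univ.filter (· ∈ P)) (a := 1) (by simp)
  have e3 : (univ.filter (· ∈ P)).card = Nat.card P := by
    rw [Nat.card_eq_fintype_card, Fintype.card_subtype]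
  rw [e1, le_sub_iff_add_le]
  exact_mod_cast e2.le.trans (e3.le.trans h1)

theorem card_le (hp : p.Prime) (hP : IsPGroup p P) {e : ℕ}
    (he : ¬ p ^ (e + 1) ∣ (Fintype.card Ω).factorial) : ∃ k ≤ e, Nat.card P = p ^ k := by
  have := Fact.mk hp
  obtain ⟨k, hk⟩ := IsPGroup.iff_card.1 hP
  refine ⟨k, ?_, hk⟩
  by_contra h
  refine he ((pow_dvd_pow p (by omega : e + 1 ≤ k)).trans ?_)
  rw [← hk, ← Fintype.card_perm, ← Nat.card_eq_fintype_card]
  exact card_subgroup_dvd_card P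

end Cr

open Cr

theorem supp_gt {Ω : Type u} [Fintype Ω] [DecidableEq Ω] {p : ℕ} (hp : p.Prime)
    {S P : Subgroup (Perm Ω)} (hS : IsPreprimitive S Ω) (hA : ¬ alternatingGroup Ω ≤ S)
    (h5 : 5 ≤ Fintype.card Ω) (hn : p = 3 ∨ p + 3 ≤ Fintype.card Ω) (hP : P ≤ S)
    (hpP : IsPGroup p P) : ∀ a ∈ P, a ≠ 1 → p < a.support.card := by
  intro a ha h1
  obtain ⟨k, hk⟩ := pw hpP ha
  by_contra! h2
  have h3 := le_antisymm h2 (le hp hk h1)
  rcases hn with rfl | hn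
  · exact hA (Perm.alternatingGroup_le_of_isPreprimitive_of_isThreeCycle_mem hS
      (card_support_eq_three_iff.1 h3) (hP ha))
  · exact hA (Cfsg.Agent.S0713.result S hS hp h5 hn (cyc hp hk h1 h2) h3 (hP ha))

open Classical in
theorem crude1 {Ω : Type u} [Fintype Ω] [DecidableEq Ω] {p : ℕ} (hp : p.Prime) {W : ℕ → ℝ}
    (hW : Monotone W) (hW0 : 0 ≤ W 0) {P : Subgroup (Perm Ω)} (hpP : IsPGroup p P)
    (hD : ∀ a ∈ P, a ≠ 1 → p < a.support.card) {e : ℕ}
    (he : ¬ p ^ (e + 2) ∣ (Fintype.card Ω).factorial) :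
    ∑ x ∈ univ.filter (fun x => x ∈ P ∧ x ≠ 1), W (Nat.card (Cyc x)) ≤
      ((p : ℝ) ^ e - 1) * W (Fintype.card Ω - 2 * (p - 1)) := by
  have := Fact.mk hp
  refine sum_le' hW hW0 ?_ fun x hx h1 => ?_
  · obtain ⟨k, h1, hk⟩ := card_le hp hpP he
    rw [hk]
    refine Nat.pow_le_pow_right hp.pos ?_
    by_contra h2
    obtain rfl : k = e + 1 := by omega
    have h3 : p ≤ Fintype.card Ω := by
      refine hp.dvd_factorial.1 ((dvd_pow_self p (by omega : e + 1 ≠ 0)).trans ?_)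
      rw [← hk, ← Fintype.card_perm, ← Nat.card_eq_fintype_card]
      exact card_subgroup_dvd_card P
    obtain ⟨c, hc⟩ := (Perm.exists_with_cycleType_iff Ω (m := {p})).2
      ⟨by simpa using h3, by simpa using hp.two_le⟩
    have c1 : orderOf c = p := by rw [← Perm.lcm_cycleType, hc]; simp
    have c2 : c.support.card = p := by rw [← Perm.sum_cycleType, hc]; simp
    obtain ⟨Q, hQ⟩ := (IsPGroup.of_card (n := 1) (G := zpowers c)
      (by rw [Nat.card_zpowers, c1, pow_one])).exists_le_sylow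
    obtain ⟨Q', hQ'⟩ := hpP.exists_le_sylow
    obtain ⟨m, h4, hm⟩ := card_le hp Q'.isPGroup' he
    have e : P = Q' := eq_of_le_of_card_ge hQ' (by
      rw [hk]; exact hm.le.trans (Nat.pow_le_pow_right hp.pos h4))
    obtain ⟨g, hg⟩ := exists_smul_eq (Perm Ω) Q Q'
    have h5 : g * c * g⁻¹ ∈ P := by
      rw [e, ← hg]
      exact ⟨c, hQ (mem_zpowers c), rfl⟩
    have h6 := hD _ h5 fun h => by
      rw [conj_eq_one_iff] at h
      rw [h, orderOf_one] at c1
      exact hp.one_lt.ne c1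
    rw [Perm.card_support_conj, c2] at h6
    exact lt_irrefl _ h6
  · obtain ⟨k, hk⟩ := pw hpP hx
    refine card_cyc hp hk ?_
    obtain ⟨t, ht⟩ := dvd hp hk
    have h2 := hD x hx h1
    rw [ht] at h2 ⊢
    have h3 : 1 < t := by
      by_contra! h
      nlinarith
    nlinarith

open Classical in
theorem crude0 {Ω : Type u} [Fintype Ω] [DecidableEq Ω] {p : ℕ} (hp : p.Prime) {W : ℕ → ℝ}
    (hW : Monotone W) (hW0 : 0 ≤ W 0) {P : Subgroup (Perm Ω)} (hpP : IsPGroup p P) {e : ℕ}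
    (he : ¬ p ^ (e + 1) ∣ (Fintype.card Ω).factorial) :
    ∑ x ∈ univ.filter (fun x => x ∈ P ∧ x ≠ 1), W (Nat.card (Cyc x)) ≤
      ((p : ℝ) ^ e - 1) * W (Fintype.card Ω - (p - 1)) := by
  refine sum_le' hW hW0 ?_ fun x hx h1 => ?_
  · obtain ⟨k, h1, hk⟩ := card_le hp hpP he
    rw [hk]
    exact Nat.pow_le_pow_right hp.pos h1
  · obtain ⟨k, hk⟩ := pw hpP hx
    have := card_cyc hp hk (j := 1) (by rw [one_mul]; exact le hp hk h1)
    rwa [one_mul] at this

end Cfsg.Lib.KP2
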