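import Cfsg.Agent.Perm.KPerm

/-! Conjugacy classes of permutation groups: weights, blocks and bounds. -/

set_option autoImplicit false
set_option linter.unusedSectionVars false

namespace Cfsg.Lib.KP2

open Subgroup MulAction Finset Equiv Cfsg.Lib.KPerm

universe u v

section

variable {Ω : Type u} [Fintype Ω] [DecidableEq Ω]

/-- The weight of a permutation on `T`: `A` for a fixed point and `v` for a moved point. -/
noncomputable def Fw (A v : ℝ) (T : Finset Ω) (y : Perm Ω) : ℝ :=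
  ∏ ω ∈ T, if y ω = ω then A else v

theorem Fw_eq_1' : type_of% @Fw.eq_1 := @Fw.eq_1

/-- The length of an orbit. -/
noncomputable def os (R : Subgroup (Perm Ω)) (ω : Ω) : ℕ := Nat.card (orbit R ω)

theorem os_eq_1' : type_of% @os.eq_1 := @os.eq_1

/-- Commuting on `T`. -/
def Cm (T : Finset Ω) (y m : Perm Ω) : Prop := ∀ ω ∈ T, y (m ω) = m (y ω)

theorem Cm_eq_1' : type_of% @Cm.eq_1 := @Cm.eq_1

/-- `T` is invariant. -/
def Iv (R : Subgroup (Perm Ω)) (T : Finset Ω) : Prop := ∀ y ∈ R, ∀ ω ∈ T, y ω ∈ T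

theorem Iv_eq_1' : type_of% @Iv.eq_1 := @Iv.eq_1

/-- `M` fixes every point outside `T`. -/
def Sp (M : Subgroup (Perm Ω)) (T : Finset Ω) : Prop := ∀ y ∈ M, ∀ ω, ω ∉ T → y ω = ω

theorem Sp_eq_1' : type_of% @Sp.eq_1 := @Sp.eq_1

/-- An orbit `O` of the `p`-group `R` split into `p` orbits of a subgroup `R0` of index `p`, one
of which is `B`. -/
structure Blk (p : ℕ) (R R0 : Subgroup (Perm Ω)) (O B : Finset Ω) : Prop where
  le : R0 ≤ R
  lt : Nat.card R0 < Nat.card R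
  idx : ∀ M ≤ R, ¬ M ≤ R0 → Nat.card M = p * Nat.card (M ⊓ R0 : Subgroup (Perm Ω))
  ivO : Iv R O
  ivB : Iv R0 B
  BO : B ⊆ O
  ne : B.Nonempty
  cardO : O.card = p * B.card
  osO : ∀ β ∈ O, os R β = O.card
  os0 : ∀ β ∈ O, os R0 β = B.card
  pw : ∃ j, B.card = p ^ j
  fpf : ∀ y ∈ R, y ∉ R0 → ∀ β ∈ O, y β ≠ β
  pow : ∀ y ∈ R, y ∉ R0 → ∀ r ∈ R, ∃ i : ℕ, (y ^ i)⁻¹ * r ∈ R0
  det : ∀ y ∈ R, y ∉ R0 → ∀ a a' : Perm Ω, Cm O a y → Cm O a' y → (∀ β ∈ B, a β = a' β) →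
    ∀ β ∈ O, a β = a' β
  fw : ∀ y ∈ R, y ∉ R0 → ∀ a ∈ R0, Cm O a y → ∀ A v : ℝ, Fw A v O a = Fw (A ^ p) (v ^ p) B a

theorem Fw_nonneg {A v : ℝ} (hA : 0 ≤ A) (hv : 0 ≤ v) (T : Finset Ω) (y : Perm Ω) :
    0 ≤ Fw A v T y := prod_nonneg fun _ _ => by split_ifs <;> assumption

theorem os_mono {R0 R : Subgroup (Perm Ω)} (h : R0 ≤ R) (ω : Ω) : os R0 ω ≤ os R ω :=
  Nat.card_mono (Set.toFinite _) (by rintro _ ⟨a, rfl⟩; exact ⟨⟨a.1, h a.2⟩, rfl⟩)

theorem os_fix {R : Subgroup (Perm Ω)} {ω : Ω} (h : ∀ y ∈ R, y ω = ω) : os R ω = 1 := by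
  have : orbit R ω = {ω} := Set.eq_singleton_iff_unique_mem.2
    ⟨mem_orbit_self _, by rintro _ ⟨a, rfl⟩; exact h a.1 a.2⟩
  rw [os, this]; simp

theorem os_pos (R : Subgroup (Perm Ω)) (ω : Ω) : 1 ≤ os R ω :=
  have : Nonempty (orbit R ω) := ⟨⟨ω, mem_orbit_self _⟩⟩
  Nat.card_pos

end

/-- A bound for weighted sums over the restrictions of a `p`-group to an invariant set. -/
def HB (p : ℕ) (a b : ℝ) (E : ℕ → ℝ) : Prop :=
  ∀ (Ω : Type u) [Fintype Ω] [DecidableEq Ω] (R : Subgroup (Perm Ω)) (B : Finset Ω)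
    (Y : Finset (Perm Ω)) (k : ℕ), IsPGroup p R → Iv R B → B.Nonempty → (∀ y ∈ Y, y ∈ R) →
    (∀ y ∈ Y, (Y.filter fun y' => ∀ β ∈ B, y' β = y β).card ≤ k) →
    ∑ y ∈ Y, Fw a b B y ≤ k * E B.card

theorem HB_eq_1' : type_of% @HB.eq_1 := @HB.eq_1

/-- A bound for the number of classes of `N`-smooth elements. -/
def Bd1 (N : ℕ) (W : ℕ → ℝ) : Prop :=
  ∀ (Ω : Type u) [Fintype Ω] [DecidableEq Ω] (H : Type v) [Group H] [Finite H]
    (ρ : H →* Perm Ω), (∀ q : ℕ, q.Prime → q < N → ¬ q ∣ Nat.card ρ.ker) →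
      (Nat.card (Sm N H) : ℝ) ≤ W (Fintype.card Ω)

theorem Bd1_eq_1' : type_of% @Bd1.eq_1 := @Bd1.eq_1

open Classical in
/-- The weighted number of commuting pairs in two cosets. -/
noncomputable def Zc {Ω : Type u} [Fintype Ω] [DecidableEq Ω] (A v : ℝ) (T : Finset Ω)
    (M : Subgroup (Perm Ω)) (x σ : Perm Ω) : ℝ :=
  ∑ a ∈ univ.filter (· ∈ M), ∑ b ∈ univ.filter (· ∈ M),
    if Cm T (x * a) (σ * b) then Fw A v T (x * a) else 0

theorem Zc_eq_1' : type_of% @Zc.eq_1 := @Zc.eq_1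

open Classical in
/-- The weighted number of elements of a coset that are not trivial on `T`. -/
noncomputable def Ze {Ω : Type u} [Fintype Ω] [DecidableEq Ω] (A v : ℝ) (T : Finset Ω)
    (M : Subgroup (Perm Ω)) (x : Perm Ω) : ℝ :=
  ∑ a ∈ univ.filter (· ∈ M), if ∀ ω ∈ T, (x * a) ω = ω then 0 else Fw A v T (x * a)

theorem Ze_eq_1' : type_of% @Ze.eq_1 := @Ze.eq_1

/-- The growth rate for `2`-elements. -/
noncomputable def A2 : ℝ := 7477 / 5000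
/-- The growth rate for `{2, 3}`-elements. -/
noncomputable def A3 : ℝ := 2313 / 1250
/-- The growth rate for `{2, 3, 5}`-elements. -/
noncomputable def A5 : ℝ := 2453 / 1250
/-- The growth rate for `{2, 3, 5, 7}`-elements. -/
noncomputable def A7 : ℝ := 19907 / 10000

theorem A2_eq_1' : type_of% @A2.eq_1 := @A2.eq_1
theorem A3_eq_1' : type_of% @A3.eq_1 := @A3.eq_1
theorem A5_eq_1' : type_of% @A5.eq_1 := @A5.eq_1
theorem A7_eq_1' : type_of% @A7.eq_1 := @A7.eq_1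

end Cfsg.Lib.KP2
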