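import Cfsg.Agent.KP2.Defs

/-! Weighted sums over the restrictions of a `p`-group to an invariant set. -/

set_option autoImplicit false
set_option linter.unusedSectionVars false

namespace Cfsg.Lib.KP2

open Subgroup MulAction Finset Equiv Cfsg.Lib.KPerm

universe u v

theorem HB_sum_le {Ω : Type u} [Fintype Ω] [DecidableEq Ω] {p : ℕ} [hp : Fact p.Prime]
    {P : Subgroup (Perm Ω)} [Fintype P] (hP : IsPGroup p P)
    {A u v B : ℝ} (hA : 0 ≤ A) (hB : 0 ≤ B) (hu : 1 ≤ u) (hv : 1 ≤ v)
    (hpu : (p : ℝ) ≤ u ^ (p - 1)) (h : A ^ p + (u * v) ^ p ≤ B ^ p) :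
    ∑ x : P, ∏ ω, (if (x : Perm Ω) ω = ω then A else v) ≤ B ^ Fintype.card Ω := by
  classical
  have hu0 : 0 ≤ u := zero_le_one.trans hu
  have hv0 : 0 ≤ v := zero_le_one.trans hv
  let st : Ω → Subgroup P := fun ω => stabilizer P ω
  let fib : Subgroup P → Finset Ω := fun H => univ.filter fun ω => st ω = H
  let T : Finset (Subgroup P) := univ.image st
  let g : Subgroup P → ℝ := fun H => if H = ⊤ then 0 else (u * v) ^ (fib H).card
  let J : P → Finset (Subgroup P) := fun x => T.filter fun H => x ∉ H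
  have hT : ∀ ω, st ω ∈ T := fun ω => mem_image_of_mem _ (mem_univ ω)
  have hfib : ∀ (f : Subgroup P → ℝ), ∏ ω, f (st ω) = ∏ H ∈ T, f H ^ (fib H).card := fun f => by
    rw [← prod_fiberwise_of_maps_to (s := univ) (t := T) (g := st) fun ω _ => hT ω]
    refine prod_congr rfl fun H _ => ?_
    rw [prod_congr rfl (g := fun _ => f H) fun ω hω => by rw [(mem_filter.1 hω).2], prod_const]
  have big : ∀ H ∈ T, H ≠ ⊤ → p ≤ (fib H).card := by
    intro H hH hne
    obtain ⟨ω, -, rfl⟩ := mem_image.1 hH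
    have := hP.isNilpotent
    obtain ⟨n, hn, hn'⟩ := SetLike.exists_of_lt
      (Group.normalizerCondition_of_isNilpotent (G := P) (st ω) (lt_top_iff_ne_top.2 hne))
    obtain ⟨k, hk⟩ := hP n
    refine (le_card_orbit (b := (n : Perm Ω)) (k := k) (congrArg Subtype.val hk) hn').trans ?_
    rw [← Nat.card_eq_finsetCard]
    refine Nat.card_le_card_of_injective (fun y => ⟨y.1, ?_⟩) fun y y' e =>
      Subtype.ext (Subtype.mk.inj e)
    obtain ⟨_, ⟨_, i, rfl⟩, rfl⟩ := y
    refine mem_filter.2 ⟨mem_univ _, ?_⟩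
    change stabilizer P ((n ^ i) • ω) = stabilizer P ω
    rw [stabilizer_smul_eq_stabilizer_map_conj]
    ext y
    have h1 := mem_normalizer_iff.1 (zpow_mem hn i)
    constructor
    · rintro ⟨z, hz, rfl⟩
      exact (h1 z).1 hz
    · intro hy
      have e : n ^ i * ((n ^ i)⁻¹ * y * n ^ i) * (n ^ i)⁻¹ = y := by group
      exact ⟨(n ^ i)⁻¹ * y * n ^ i, (h1 _).2 (e.symm ▸ hy), e⟩
  calc ∑ x : P, ∏ ω, (if (x : Perm Ω) ω = ω then A else v)
      ≤ ∑ x : P, (∏ H ∈ J x, v ^ (fib H).card) * ∏ H ∈ T \ J x, A ^ (fib H).card := by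
        refine sum_le_sum fun x _ => le_of_eq ?_
        refine Eq.trans (b := ∏ ω, (fun H : Subgroup P => if x ∈ H then A else v) (st ω))
          (prod_congr rfl fun ω _ => by
            by_cases e : (x : Perm Ω) ω = ω
            · rw [if_pos e]; exact (if_pos e).symm
            · rw [if_neg e]; exact (if_neg e).symm) ?_
        rw [hfib fun H : Subgroup P => if x ∈ H then A else v,
          ← prod_sdiff (filter_subset (fun H => x ∉ H) T), mul_comm]
        congr 1
        · exact prod_congr rfl fun H hH => by rw [if_neg (mem_filter.1 hH).2]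
        · refine prod_congr rfl fun H hH => ?_
          rw [if_pos]
          by_contra hx
          exact (mem_sdiff.1 hH).2 (mem_filter.2 ⟨(mem_sdiff.1 hH).1, hx⟩)
    _ = ∑ t ∈ T.powerset, ∑ x ∈ univ.filter (fun x : P => J x = t),
          (∏ H ∈ J x, v ^ (fib H).card) * ∏ H ∈ T \ J x, A ^ (fib H).card :=
        (sum_fiberwise_of_maps_to (fun x _ => mem_powerset.2 (filter_subset _ _)) _).symm
    _ ≤ ∑ t ∈ T.powerset, (∏ H ∈ t, g H) * ∏ H ∈ T \ t, A ^ (fib H).card := by
        refine sum_le_sum fun t ht => ?_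
        rw [sum_congr rfl (g := fun _ => (∏ H ∈ t, v ^ (fib H).card) *
          ∏ H ∈ T \ t, A ^ (fib H).card) fun x hx => by rw [(mem_filter.1 hx).2], sum_const,
          nsmul_eq_mul, ← mul_assoc]
        refine mul_le_mul_of_nonneg_right ?_ (prod_nonneg fun _ _ => pow_nonneg hA _)
        by_cases htop : ⊤ ∈ t
        · have : univ.filter (fun x : P => J x = t) = ∅ := by
            refine filter_eq_empty_iff.2 fun x _ e => ?_
            rw [← e] at htop
            exact (mem_filter.1 htop).2 (Subgroup.mem_top x)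
          rw [this, card_empty, Nat.cast_zero, zero_mul]
          exact prod_nonneg fun H _ => by
            simp only [g]; split_ifs
            · exact le_rfl
            · positivity
        · rw [prod_congr rfl (f := g) (g := fun H => u ^ (fib H).card * v ^ (fib H).card)
            fun H hH => by
              simp only [g]; rw [if_neg (fun e : H = ⊤ => htop (e ▸ hH)), mul_pow], prod_mul_distrib]
          refine mul_le_mul_of_nonneg_right ?_ (prod_nonneg fun _ _ => pow_nonneg hv0 _)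
          let S : Finset Ω := univ.filter fun ω => st ω ∈ t
          let R : Subgroup (Perm Ω) := P ⊓ fixingSubgroup (Perm Ω) ((S : Set Ω)ᶜ)
          have h1 := card_le_pow (R := R) (hP.to_le inf_le_left) S (fun x hx ω hω => by
            by_contra hs
            exact hω ((mem_fixingSubgroup_iff _).1 hx.2 ω hs)) hu hpu
          have h2 : (univ.filter (fun x : P => J x = t)).card ≤ Nat.card R := by
            rw [← Nat.card_eq_finsetCard]
            refine Nat.card_le_card_of_injective (fun x => ⟨x.1.1, x.1.2, ?_⟩) fun x y e =>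
              Subtype.ext (Subtype.ext (Subtype.mk.inj e))
            refine (mem_fixingSubgroup_iff _).2 fun ω hω => ?_
            by_contra hx
            apply hω
            refine mem_coe.2 (mem_filter.2 ⟨mem_univ _, ?_⟩)
            rw [← (mem_filter.1 x.2).2]
            exact mem_filter.2 ⟨hT ω, hx⟩
          refine (Nat.cast_le.2 h2).trans (h1.trans (le_of_eq ?_))
          rw [prod_pow_eq_pow_sum, card_eq_sum_card_fiberwise (f := st) (s := S) (t := t)
            fun ω hω => mem_coe.2 (mem_filter.1 (mem_coe.1 hω)).2]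
          congr 1
          refine sum_congr rfl fun H hH => congrArg card ?_
          ext ω
          simp only [S, fib, mem_filter, mem_univ, true_and]
          exact ⟨fun h => h.2, fun h => ⟨h ▸ hH, h⟩⟩
    _ = ∏ H ∈ T, (g H + A ^ (fib H).card) := (prod_add _ _ _).symm
    _ ≤ ∏ H ∈ T, B ^ (fib H).card := by
        refine prod_le_prod (fun H _ => add_nonneg ?_ (pow_nonneg hA _)) fun H hH => ?_
        · simp only [g]; split_ifs
          · exact le_rfl
          · positivity
        · simp only [g]; split_ifs with e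
          · rw [zero_add]
            exact pow_le_pow_left₀ hA (le_of_pow_le_pow_left₀ hp.out.ne_zero hB
              (by linarith [pow_nonneg (mul_nonneg hu0 hv0) p])) _
          · exact add_pow_le hA (mul_nonneg hu0 hv0) hB hp.out.ne_zero h (big H hH e)
    _ = B ^ Fintype.card Ω := by rw [← hfib fun _ => B, prod_const, card_univ]

theorem HB_red {Ω : Type u} [Fintype Ω] [DecidableEq Ω] {p : ℕ} {R : Subgroup (Perm Ω)}
    {B : Finset Ω} {Y : Finset (Perm Ω)} {k : ℕ} (hR : IsPGroup p R) (hB : Iv R B)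
    (hY : ∀ y ∈ Y, y ∈ R)
    (hk : ∀ y ∈ Y, (Y.filter fun y' => ∀ β ∈ B, y' β = y β).card ≤ k) {a b : ℝ} (ha : 0 ≤ a)
    (hb : 0 ≤ b) :
    ∃ (P : Subgroup (Perm {x // x ∈ B})) (_ : Fintype P), IsPGroup p P ∧
      ∑ y ∈ Y, Fw a b B y ≤
        k * ∑ x : P, ∏ ω, (if (x : Perm {x // x ∈ B}) ω = ω then a else b) := by
  classical
  have hI : ∀ y : R, ∀ x, (y : Perm Ω) x ∈ B ↔ x ∈ B := fun y x =>
    ⟨fun h => by simpa using hB _ (R.inv_mem y.2) _ h, hB _ y.2 x⟩
  let ρ : R →* Perm {x // x ∈ B} :=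
    { toFun := fun y => Perm.subtypePerm (y : Perm Ω) (hI y)
      map_one' := Equiv.ext fun _ => rfl
      map_mul' := fun _ _ => Equiv.ext fun _ => rfl }
  have : Fintype ρ.range := Fintype.ofFinite _
  refine ⟨ρ.range, this, hR.of_surjective ρ.rangeRestrict ρ.rangeRestrict_surjective, ?_⟩
  let g : Perm Ω → ρ.range := fun y => if h : y ∈ R then ρ.rangeRestrict ⟨y, h⟩ else 1
  have hg : ∀ y ∈ Y, ∀ ω : {x // x ∈ B}, (((g y : ρ.range) : Perm {x // x ∈ B}) ω : Ω) = y ω := by
    intro y hy ω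
    simp only [g, dif_pos (hY y hy)]
    rfl
  rw [← sum_fiberwise_of_maps_to (s := Y) (t := univ) (g := g) fun _ _ => mem_univ _, mul_sum]
  refine sum_le_sum fun x _ => ?_
  rw [sum_congr rfl (g := fun _ => ∏ ω, (if (x : Perm {x // x ∈ B}) ω = ω then a else b))
    fun y hy => ?_, sum_const, nsmul_eq_mul]
  · refine mul_le_mul_of_nonneg_right (Nat.cast_le.2 ?_)
      (prod_nonneg fun _ _ => by split_ifs <;> assumption)
    rcases (Y.filter fun y => g y = x).eq_empty_or_nonempty with h | ⟨y0, h0⟩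
    · rw [h]; exact Nat.zero_le _
    · obtain ⟨h1, h2⟩ := mem_filter.1 h0
      refine le_trans (card_le_card fun y hy => ?_) (hk y0 h1)
      obtain ⟨h3, h4⟩ := mem_filter.1 hy
      refine mem_filter.2 ⟨h3, fun β hβ => ?_⟩
      rw [← hg y h3 ⟨β, hβ⟩, ← hg y0 h1 ⟨β, hβ⟩, h2, h4]
  · obtain ⟨h3, h4⟩ := mem_filter.1 hy
    rw [Fw, ← prod_coe_sort]
    refine prod_congr rfl fun ω _ => ?_
    rw [← h4, ← hg y h3 ω]
    simp only [Subtype.ext_iff]

theorem HB_card_le {Ω : Type u} [Fintype Ω] [DecidableEq Ω] {p : ℕ} (hp : p.Prime)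
    {P : Subgroup (Perm Ω)} (hP : IsPGroup p P) (hΩ : Fintype.card Ω ≠ 0) {w : ℝ} (hw : 1 ≤ w)
    (hpw : (p : ℝ) ≤ w ^ (p - 1)) : (Nat.card P : ℝ) ≤ w ^ (Fintype.card Ω - 1) := by
  have := Fact.mk hp
  obtain ⟨k, hk⟩ := IsPGroup.iff_card.1 hP
  have h2 : p ^ k ∣ (Fintype.card Ω).factorial := by
    rw [← hk, ← Fintype.card_perm, ← Nat.card_eq_fintype_card]
    exact P.card_subgroup_dvd_card
  have h3 : k ≤ padicValNat p (Fintype.card Ω).factorial :=
    (padicValNat_dvd_iff_le (Nat.factorial_ne_zero _)).1 h2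
  have h4 : (p - 1) * k ≤ Fintype.card Ω - 1 := by
    have h5 := Nat.mul_le_mul_left (p - 1) h3
    have h6 := sub_one_mul_padicValNat_factorial_lt_of_ne_zero (p := p) hΩ
    omega
  rw [hk, Nat.cast_pow]
  calc (p : ℝ) ^ k ≤ (w ^ (p - 1)) ^ k := pow_le_pow_left₀ (Nat.cast_nonneg _) hpw k
    _ = w ^ ((p - 1) * k) := (pow_mul _ _ _).symm
    _ ≤ w ^ (Fintype.card Ω - 1) := pow_le_pow_right₀ hw h4

theorem hb_pow {p : ℕ} (hp : p.Prime) {a b w C : ℝ} (ha : 0 ≤ a) (hC : 0 ≤ C) (hw : 1 ≤ w)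
    (hb : 1 ≤ b) (hpw : (p : ℝ) ≤ w ^ (p - 1)) (h : a ^ p + (w * b) ^ p ≤ C ^ p) :
    HB.{u} p a b fun s => if s = 1 then a else C ^ s := by
  intro Ω _ _ R B Y k hR hB _ hY hk
  have := Fact.mk hp
  obtain ⟨P, _, hP, h1⟩ := HB_red hR hB hY hk ha (zero_le_one.trans hb)
  refine h1.trans (mul_le_mul_of_nonneg_left ?_ (Nat.cast_nonneg _))
  have hc : Fintype.card {x // x ∈ B} = B.card := Fintype.card_coe B
  by_cases hs : B.card = 1
  · simp only [if_pos hs]
    have hsub : Subsingleton {x // x ∈ B} := Fintype.card_le_one_iff_subsingleton.1 (by omega)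
    have hsub' : Subsingleton P := ⟨fun x y => Subtype.ext (Equiv.ext fun _ => Subsingleton.elim _ _)⟩
    rw [Fintype.sum_subsingleton _ (1 : P),
      prod_congr rfl (g := fun _ => a) fun ω _ => if_pos (Subsingleton.elim _ _), prod_const,
      card_univ, hc, hs, pow_one]
  · simp only [if_neg hs]
    rw [← hc]
    exact HB_sum_le hP ha hC hw hb hpw h

theorem hb_card {p : ℕ} (hp : p.Prime) {w : ℝ} (hw : 1 ≤ w) (hpw : (p : ℝ) ≤ w ^ (p - 1)) :
    HB.{u} p 1 1 fun s => w ^ (s - 1) := by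
  intro Ω _ _ R B Y k hR hB hne hY hk
  obtain ⟨P, _, hP, h1⟩ := HB_red hR hB hY hk zero_le_one zero_le_one
  refine h1.trans (mul_le_mul_of_nonneg_left ?_ (Nat.cast_nonneg _))
  have hc : Fintype.card {x // x ∈ B} = B.card := Fintype.card_coe B
  have h2 := HB_card_le hp hP (hc ▸ hne.card_ne_zero) hw hpw
  rw [hc, Nat.card_eq_fintype_card] at h2
  simpa using h2

end Cfsg.Lib.KP2
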