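import Cfsg.Agent.KP2.Blk

/-! The weighted number of commuting pairs in two cosets of a `p`-group of permutations. -/

set_option autoImplicit false
set_option linter.unusedSectionVars false

namespace Cfsg.Lib.KP2

open Subgroup MulAction Finset Equiv Cfsg.Lib.KPerm

universe u v

namespace KL

variable {Ω : Type u} [Fintype Ω] [DecidableEq Ω]

open Classical in
/-- The weight of a pair. -/
noncomputable def ff (A v : ℝ) (T : Finset Ω) (y m : Perm Ω) : ℝ :=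
  if Cm T y m then Fw A v T y else 0

theorem ff_eq_1' : type_of% @ff.eq_1 := @ff.eq_1

open Classical in
/-- A left coset as a finite set. -/
noncomputable def co (x : Perm Ω) (M : Subgroup (Perm Ω)) : Finset (Perm Ω) :=
  univ.filter fun y => x⁻¹ * y ∈ M

theorem co_eq_1' : type_of% @co.eq_1 := @co.eq_1

/-- The weighted number of commuting pairs in a product of two sets. -/
noncomputable def Zs (A v : ℝ) (T : Finset Ω) (X Y : Finset (Perm Ω)) : ℝ :=
  ∑ y ∈ X, ∑ m ∈ Y, ff A v T y m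

theorem Zs_eq_1' : type_of% @Zs.eq_1 := @Zs.eq_1

variable {A v : ℝ} {T O : Finset Ω} {M N : Subgroup (Perm Ω)} {x y m σ : Perm Ω}
  {X Y : Finset (Perm Ω)}

theorem mem_co : y ∈ co x M ↔ x⁻¹ * y ∈ M := by simp [co]

open Classical in
theorem sum_co (f : Perm Ω → ℝ) :
    ∑ y ∈ co x M, f y = ∑ a ∈ univ.filter (· ∈ M), f (x * a) :=
  Finset.sum_bij' (fun y _ => x⁻¹ * y) (fun a _ => x * a) (fun y hy => by simpa [co] using hy)
    (fun a ha => by simpa [co] using ha) (fun y _ => by simp) (fun a _ => by simp)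
    (fun y _ => by simp)

open Classical in
theorem card_mem (M : Subgroup (Perm Ω)) : (univ.filter (· ∈ M)).card = Nat.card M := by
  rw [Nat.card_eq_fintype_card, Fintype.card_subtype]

theorem card_co : (co x M).card = Nat.card M := by
  classical
  have h := sum_co (x := x) (M := M) fun _ => 1
  simp only [sum_const, nsmul_eq_mul, mul_one, Nat.cast_inj] at h
  rw [h]; convert card_mem M

theorem zc_eq : Zc A v T M x σ = Zs A v T (co x M) (co σ M) := by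
  rw [Zs, sum_co, Zc]
  refine sum_congr rfl fun a _ => ?_
  rw [sum_co]; rfl

theorem ff_nonneg (hA : 0 ≤ A) (hv : 0 ≤ v) : 0 ≤ ff A v T y m := by
  unfold ff; split_ifs
  · exact Fw_nonneg hA hv _ _
  · exact le_rfl

theorem ff_split (hOT : O ⊆ T) : ff A v T y m = ff A v O y m * ff A v (T \ O) y m := by
  have h1 : Cm T y m ↔ Cm O y m ∧ Cm (T \ O) y m := by
    constructor
    · exact fun h => ⟨fun ω hω => h ω (hOT hω), fun ω hω => h ω (mem_sdiff.1 hω).1⟩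
    · rintro ⟨h, h'⟩ ω hω
      by_cases hO : ω ∈ O
      · exact h ω hO
      · exact h' ω (mem_sdiff.2 ⟨hω, hO⟩)
  have h2 : Fw A v T y = Fw A v O y * Fw A v (T \ O) y := by
    rw [Fw, Fw, Fw, mul_comm, prod_sdiff hOT]
  unfold ff
  by_cases ha : Cm O y m <;> by_cases hb : Cm (T \ O) y m <;> simp [h1, h2, ha, hb]

theorem ff_mul {n n' : Perm Ω} (hn : ∀ β ∈ O, n β = β) (hn' : ∀ β ∈ O, n' β = β)
    (hy : ∀ β ∈ O, y β ∈ O) (hm : ∀ β ∈ O, m β ∈ O) :
    ff A v O (y * n) (m * n') = ff A v O y m := by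
  have h1 : Cm O (y * n) (m * n') ↔ Cm O y m := by
    refine forall₂_congr fun ω hω => ?_
    simp only [Perm.mul_apply, hn ω hω, hn' ω hω, hn _ (hm ω hω), hn' _ (hy ω hω)]
  have h2 : Fw A v O (y * n) = Fw A v O y :=
    prod_congr rfl fun ω hω => by simp only [Perm.mul_apply, hn ω hω]
  unfold ff
  by_cases h : Cm O y m
  · rw [if_pos h, if_pos (h1.2 h), h2]
  · rw [if_neg h, if_neg fun h' => h (h1.1 h')]

theorem sum_shift (hX : ∀ y ∈ X, ∀ n ∈ N, y * n ∈ X) {n : Perm Ω} (hn : n ∈ N)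
    (f : Perm Ω → ℝ) : ∑ y ∈ X, f (y * n) = ∑ y ∈ X, f y :=
  Finset.sum_bij' (fun y _ => y * n) (fun y _ => y * n⁻¹) (fun y hy => hX y hy n hn)
    (fun y hy => hX y hy _ (N.inv_mem hn)) (fun y _ => by simp) (fun a _ => by simp)
    (fun y _ => rfl)

theorem avg {K : ℝ} (hA : 0 ≤ A) (hv : 0 ≤ v) (hOT : O ⊆ T) (hN : ∀ n ∈ N, ∀ β ∈ O, n β = β)
    (hX : ∀ y ∈ X, ∀ n ∈ N, y * n ∈ X) (hY : ∀ y ∈ Y, ∀ n ∈ N, y * n ∈ Y)
    (hXO : ∀ y ∈ X, ∀ β ∈ O, y β ∈ O) (hYO : ∀ y ∈ Y, ∀ β ∈ O, y β ∈ O)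
    (hK : ∀ y ∈ X, ∀ m ∈ Y, Zc A v (T \ O) N y m ≤ Nat.card N * K) :
    Nat.card N * Zs A v T X Y ≤ K * Zs A v O X Y := by
  classical
  have hpos : (0 : ℝ) < Nat.card N := by exact_mod_cast Nat.card_pos
  have e1 : ∀ n ∈ univ.filter (· ∈ N), ∀ n' ∈ univ.filter (· ∈ N),
      Zs A v T X Y = ∑ y ∈ X, ∑ m ∈ Y, ff A v O y m * ff A v (T \ O) (y * n) (m * n') := by
    intro n hn n' hn'
    have hn := (mem_filter.1 hn).2
    have hn' := (mem_filter.1 hn').2
    rw [Zs, ← sum_shift hX hn]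
    refine sum_congr rfl fun y hy => ?_
    rw [← sum_shift hY hn']
    refine sum_congr rfl fun m hm => ?_
    rw [ff_split hOT, ff_mul (hN n hn) (hN n' hn') (hXO y hy) (hYO m hm)]
  have e2 : (Nat.card N : ℝ) * (Nat.card N * Zs A v T X Y) =
      ∑ y ∈ X, ∑ m ∈ Y, ff A v O y m * Zc A v (T \ O) N y m := by
    calc (Nat.card N : ℝ) * (Nat.card N * Zs A v T X Y)
        = ∑ n ∈ univ.filter (· ∈ N), ∑ n' ∈ univ.filter (· ∈ N), Zs A v T X Y := by
          simp only [sum_const, nsmul_eq_mul, card_mem]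
      _ = ∑ n ∈ univ.filter (· ∈ N), ∑ n' ∈ univ.filter (· ∈ N), ∑ y ∈ X, ∑ m ∈ Y,
            ff A v O y m * ff A v (T \ O) (y * n) (m * n') :=
          sum_congr rfl fun n hn => sum_congr rfl fun n' hn' => e1 n hn n' hn'
      _ = _ := by
          simp only [Zc, mul_sum]
          rw [sum_congr rfl fun n _ => sum_comm, sum_comm]
          refine sum_congr rfl fun y _ => ?_
          rw [sum_congr rfl fun n _ => sum_comm, sum_comm]
          rfl
  refine le_of_mul_le_mul_left ?_ hpos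
  rw [e2, Zs, ← mul_assoc, mul_sum]
  refine sum_le_sum fun y hy => ?_
  rw [mul_sum]
  refine sum_le_sum fun m hm => ?_
  rw [mul_comm (_ * K)]
  exact mul_le_mul_of_nonneg_left (hK y hy m hm) (ff_nonneg hA hv)

variable {p : ℕ} {R R0 : Subgroup (Perm Ω)} {B : Finset Ω}

theorem fib_le (hB : Blk p R R0 O B) (hy : y ∈ R) (hy0 : y ∉ R0)
    (hN : ∀ n ∈ M, (∀ β ∈ O, n β = β) → n ∈ N) (hX : ∀ a ∈ X, Cm O a y)
    (hXM : ∀ a ∈ X, ∀ a' ∈ X, a⁻¹ * a' ∈ M) :
    ∀ a ∈ X, (X.filter fun a' => ∀ β ∈ B, a' β = a β).card ≤ Nat.card N := by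
  intro a ha
  rw [← card_co (x := a)]
  refine card_le_card fun a' ha' => ?_
  obtain ⟨h1, h2⟩ := mem_filter.1 ha'
  refine mem_co.2 (hN _ (hXM a ha a' h1) fun β hβ => ?_)
  have := hB.det y hy hy0 a' a (hX a' h1) (hX a ha) h2 β hβ
  simp [Perm.mul_apply, this]

theorem in_out {E : ℕ → ℝ} (hB : Blk p R R0 O B) (hR : IsPGroup p R)
    (hE : HB.{u} p (A ^ p) (v ^ p) E) (hN : ∀ n ∈ M, (∀ β ∈ O, n β = β) → n ∈ N)
    (hX : ∀ a ∈ X, a ∈ R0) (hXM : ∀ a ∈ X, ∀ a' ∈ X, a⁻¹ * a' ∈ M)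
    (hY : ∀ m ∈ Y, m ∈ R ∧ m ∉ R0) :
    Zs A v O X Y ≤ Y.card * (Nat.card N * E B.card) := by
  classical
  rw [Zs, sum_comm, ← nsmul_eq_mul]
  refine sum_le_card_nsmul _ _ _ fun m hm => ?_
  obtain ⟨hm, hm0⟩ := hY m hm
  have h := hE Ω R0 B (X.filter fun a => Cm O a m) (Nat.card N) (hR.to_le hB.le) hB.ivB hB.ne
    (fun a ha => hX a (mem_filter.1 ha).1)
    (fib_le hB hm hm0 hN (fun a ha => (mem_filter.1 ha).2)
      fun a ha a' ha' => hXM a (mem_filter.1 ha).1 a' (mem_filter.1 ha').1)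
  refine le_trans (le_of_eq ?_) h
  rw [sum_filter]
  refine sum_congr rfl fun a ha => ?_
  unfold ff
  split_ifs with hc
  · exact hB.fw m hm hm0 a (hX a ha) hc A v
  · rfl

theorem cm_pow (h : Cm O y m) (i : ℕ) : Cm O ((y ^ i)⁻¹ * m) y := by
  intro ω hω
  have h1 : (y ^ i)⁻¹ * y = y * (y ^ i)⁻¹ := by group
  simp only [Perm.mul_apply]
  rw [← h ω hω, ← Perm.mul_apply, h1, Perm.mul_apply]

open Classical in
theorem cnt_co {G : ℕ → ℝ} (hB : Blk p R R0 O B) (hR : IsPGroup p R) (hG : HB.{u} p 1 1 G)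
    (hN : ∀ n ∈ M, (∀ β ∈ O, n β = β) → n ∈ N) (hM : M ≤ R0) (hy : y ∈ R) (hy0 : y ∉ R0)
    (hm : m ∈ R) : (((co m M).filter fun b => Cm O y b).card : ℝ) ≤ Nat.card N * G B.card := by
  obtain ⟨i, hi⟩ := hB.pow y hy hy0 m hm
  have h := hG Ω R0 B (((co m M).filter fun b => Cm O y b).image fun b => (y ^ i)⁻¹ * b)
    (Nat.card N) (hR.to_le hB.le) hB.ivB hB.ne
    (fun a ha => by
      obtain ⟨b, hb, rfl⟩ := mem_image.1 ha
      have := R0.mul_mem hi (hM (mem_co.1 (mem_filter.1 hb).1))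
      simpa [mul_assoc] using this)
    (fib_le (M := M) hB hy hy0 hN
      (fun a ha => by
        obtain ⟨b, hb, rfl⟩ := mem_image.1 ha
        exact cm_pow (mem_filter.1 hb).2 i)
      fun a ha a' ha' => by
        obtain ⟨b, hb, rfl⟩ := mem_image.1 ha
        obtain ⟨b', hb', rfl⟩ := mem_image.1 ha'
        have := M.mul_mem (M.inv_mem (mem_co.1 (mem_filter.1 hb).1)) (mem_co.1 (mem_filter.1 hb').1)
        simpa [mul_assoc] using this)
  refine le_trans (le_of_eq ?_) h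
  have h1 : ∀ z : Perm Ω, Fw 1 1 B z = 1 := fun z => by simp [Fw]
  rw [sum_image fun a _ b _ hab => mul_left_cancel hab]
  simp [h1]

theorem out_all {G : ℕ → ℝ} (hv : 0 ≤ v) (hB : Blk p R R0 O B) (hR : IsPGroup p R)
    (hG : HB.{u} p 1 1 G) (hN : ∀ n ∈ M, (∀ β ∈ O, n β = β) → n ∈ N) (hM : M ≤ R0)
    (hX : ∀ y ∈ X, y ∈ R ∧ y ∉ R0) (hY : ∀ m ∈ Y, m ∈ R) (hYM : ∀ m ∈ Y, ∀ a ∈ M, m * a ∈ Y) :
    Nat.card M * Zs A v O X Y ≤ X.card * (Y.card * (Nat.card N * (G B.card * v ^ O.card))) := by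
  classical
  rw [Zs, mul_sum, ← nsmul_eq_mul]
  refine sum_le_card_nsmul _ _ _ fun y hy => ?_
  obtain ⟨hy, hy0⟩ := hX y hy
  have hF : Fw A v O y = v ^ O.card := by
    rw [Fw, prod_congr rfl fun β hβ => if_neg (hB.fpf y hy hy0 β hβ), prod_const]
  calc (Nat.card M : ℝ) * ∑ m ∈ Y, ff A v O y m
      = ∑ a ∈ univ.filter (· ∈ M), ∑ m ∈ Y, ff A v O y (m * a) := by
        rw [sum_congr rfl fun a ha => sum_shift hYM (mem_filter.1 ha).2 (ff A v O y)]
        simp only [sum_const, nsmul_eq_mul, card_mem]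
    _ = ∑ m ∈ Y, ∑ b ∈ co m M, ff A v O y b := by
        rw [sum_comm]; exact sum_congr rfl fun m _ => (sum_co _).symm
    _ ≤ _ := by
        rw [← nsmul_eq_mul]
        refine sum_le_card_nsmul _ _ _ fun m hm => ?_
        have h := cnt_co hB hR hG hN hM hy hy0 (hY m hm)
        have e : ∑ b ∈ co m M, ff A v O y b =
            (((co m M).filter fun b => Cm O y b).card : ℝ) * v ^ O.card := by
          rw [← nsmul_eq_mul, ← sum_const, sum_filter]
          refine sum_congr rfl fun b _ => ?_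
          rw [ff, hF]
        rw [e, ← mul_assoc]
        exact mul_le_mul_of_nonneg_right h (pow_nonneg hv _)

theorem iv_sdiff (hT : Iv R T) (hO : Iv R O) : Iv R (T \ O) := by
  intro y hy ω hω
  obtain ⟨h1, h2⟩ := mem_sdiff.1 hω
  refine mem_sdiff.2 ⟨hT y hy ω h1, fun h => h2 ?_⟩
  simpa using hO _ (R.inv_mem hy) _ h

open Classical in
theorem in_eq (hy : y ∈ (co x M).filter (· ∈ R0)) :
    (co x M).filter (· ∈ R0) = co y (M ⊓ R0) := by
  obtain ⟨h1, h2⟩ := mem_filter.1 hy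
  rw [mem_co] at h1
  ext z
  simp only [mem_filter, mem_co, Subgroup.mem_inf]
  constructor
  · rintro ⟨h3, h4⟩
    exact ⟨by simpa [mul_assoc] using M.mul_mem (M.inv_mem h1) h3, R0.mul_mem (R0.inv_mem h2) h4⟩
  · rintro ⟨h3, h4⟩
    exact ⟨by simpa [mul_assoc] using M.mul_mem h1 h3, by simpa using R0.mul_mem h2 h4⟩

open Classical in
theorem out_card (hB : Blk p R R0 O B) (hM : M ≤ R) (hM0 : ¬ M ≤ R0) (hx : x ∈ R) :
    (((co x M).filter (· ∉ R0)).card : ℝ) = (p - 1) * Nat.card (M ⊓ R0 : Subgroup (Perm Ω)) := by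
  obtain ⟨y, hy, hy0⟩ := SetLike.not_le_iff_exists.1 hM0
  obtain ⟨i, hi⟩ := hB.pow y (hM hy) hy0 x⁻¹ (R.inv_mem hx)
  have h1 : x * y ^ i ∈ (co x M).filter (· ∈ R0) :=
    mem_filter.2 ⟨mem_co.2 (by simpa using M.pow_mem hy i), by simpa using R0.inv_mem hi⟩
  have h2 := card_filter_add_card_filter_not (s := co x M) (· ∈ R0)
  rw [in_eq h1, card_co, card_co, hB.idx M hM hM0] at h2
  have h3 := congrArg (Nat.cast : ℕ → ℝ) h2
  push_cast at h3
  linarith

open Classical in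
theorem Zs_split (A v : ℝ) (T : Finset Ω) (X Y : Finset (Perm Ω)) (R0 : Subgroup (Perm Ω)) :
    Zs A v T X Y = Zs A v T (X.filter (· ∈ R0)) (Y.filter (· ∈ R0)) +
      Zs A v T (X.filter (· ∈ R0)) (Y.filter (· ∉ R0)) + Zs A v T (X.filter (· ∉ R0)) Y := by
  simp only [Zs]
  rw [← sum_add_distrib, ← sum_filter_add_sum_filter_not X (· ∈ R0)]
  congr 1
  exact sum_congr rfl fun y _ => (sum_filter_add_sum_filter_not Y (· ∈ R0) _).symm

theorem Zs_left (A v : ℝ) (T : Finset Ω) (Y : Finset (Perm Ω)) : Zs A v T ∅ Y = 0 := by simp [Zs]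

theorem Zs_right (A v : ℝ) (T : Finset Ω) (X : Finset (Perm Ω)) : Zs A v T X ∅ = 0 := by simp [Zs]

/-- The step over an orbit which splits into blocks. -/
theorem step {g g' E G K : ℝ} {E' G' : ℕ → ℝ} (hA : 0 ≤ A) (hv : 0 ≤ v) (hK : 0 ≤ K) (hg : 0 ≤ g)
    (hgg : g ≤ g') (hE : HB.{u} p (A ^ p) (v ^ p) E') (hG : HB.{u} p 1 1 G')
    (hB : Blk p R R0 O B) (eE : E = E' B.card) (eG : G = G' B.card * v ^ O.card)
    (h1 : E ≤ g') (h2 : G ≤ g') (h3 : g + (p - 1) * E + (p - 1) * p * G ≤ p * g')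
    (hR : IsPGroup p R) (hOT : O ⊆ T) (hM : M ≤ R) (hx : x ∈ R) (hσ : σ ∈ R)
    (i1 : ∀ y ∈ R0, ∀ m ∈ R0, Zc A v T (M ⊓ R0) y m ≤ Nat.card (M ⊓ R0 : Subgroup (Perm Ω)) * (g * K))
    (i2 : ∀ N ≤ M, (∀ n ∈ N, ∀ β ∈ O, n β = β) → ∀ y ∈ R, ∀ m ∈ R,
      Zc A v (T \ O) N y m ≤ Nat.card N * K) :
    Zc A v T M x σ ≤ Nat.card M * (g' * K) := by
  classical
  obtain ⟨N, hNd⟩ : ∃ N : Subgroup (Perm Ω), ∀ n, n ∈ N ↔ n ∈ M ∧ ∀ β ∈ O, n β = β :=
    ⟨M ⊓ fixingSubgroup (Perm Ω) (O : Set Ω), fun n => by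
      simp [Subgroup.mem_inf, mem_fixingSubgroup_iff]⟩
  have hNM : N ≤ M := fun n hn => ((hNd n).1 hn).1
  have hNO : ∀ n ∈ N, ∀ β ∈ O, n β = β := fun n hn => ((hNd n).1 hn).2
  have hN0 : N ≤ R0 := fun n hn => by
    by_contra h
    obtain ⟨β, hβ⟩ := hB.ne
    exact hB.fpf n (hM (hNM hn)) h β (hB.BO hβ) (hNO n hn β (hB.BO hβ))
  have hpos : (0 : ℝ) < Nat.card N := by exact_mod_cast Nat.card_pos
  have hpos0 : (0 : ℝ) < Nat.card (M ⊓ R0 : Subgroup (Perm Ω)) := by exact_mod_cast Nat.card_pos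
  have cR : ∀ z ∈ R, ∀ y ∈ co z M, y ∈ R := fun z hz y hy => by
    simpa using R.mul_mem hz (hM (mem_co.1 hy))
  have cM : ∀ z, ∀ y ∈ co z M, ∀ n ∈ M, y * n ∈ co z M := fun z y hy n hn =>
    mem_co.2 (by simpa [mul_assoc] using M.mul_mem (mem_co.1 hy) hn)
  have cI : ∀ z, ∀ y ∈ (co z M).filter (· ∈ R0), ∀ n ∈ N, y * n ∈ (co z M).filter (· ∈ R0) :=
    fun z y hy n hn => mem_filter.2 ⟨cM z y (mem_filter.1 hy).1 n (hNM hn),
      R0.mul_mem (mem_filter.1 hy).2 (hN0 hn)⟩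
  have cO : ∀ z, ∀ y ∈ (co z M).filter (· ∉ R0), ∀ n ∈ N, y * n ∈ (co z M).filter (· ∉ R0) :=
    fun z y hy n hn => mem_filter.2 ⟨cM z y (mem_filter.1 hy).1 n (hNM hn),
      fun h => (mem_filter.1 hy).2 (by simpa using R0.mul_mem h (R0.inv_mem (hN0 hn)))⟩
  have hg' : 0 ≤ g' := hg.trans hgg
  have p1 : Zs A v T ((co x M).filter (· ∈ R0)) ((co σ M).filter (· ∈ R0)) ≤
      Nat.card (M ⊓ R0 : Subgroup (Perm Ω)) * (g * K) := by
    rcases ((co x M).filter (· ∈ R0)).eq_empty_or_nonempty with h | ⟨y, hy⟩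
    · rw [h, Zs_left]; positivity
    rcases ((co σ M).filter (· ∈ R0)).eq_empty_or_nonempty with h | ⟨m, hm⟩
    · rw [h, Zs_right]; positivity
    rw [in_eq hy, in_eq hm, ← zc_eq]
    exact i1 y (mem_filter.1 hy).2 m (mem_filter.1 hm).2
  have p2 : Zs A v T ((co x M).filter (· ∈ R0)) ((co σ M).filter (· ∉ R0)) ≤
      ((co σ M).filter (· ∉ R0)).card * (E * K) := by
    have a1 := avg hA hv hOT hNO (cI x) (cO σ)
      (fun y hy => hB.ivO y (cR x hx y (mem_filter.1 hy).1))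
      (fun y hy => hB.ivO y (cR σ hσ y (mem_filter.1 hy).1))
      fun y hy m hm => i2 N hNM hNO y (cR x hx y (mem_filter.1 hy).1) m
        (cR σ hσ m (mem_filter.1 hm).1)
    have a2 := in_out (X := (co x M).filter (· ∈ R0)) (Y := (co σ M).filter (· ∉ R0)) hB hR hE
      (fun n hn h => (hNd n).2 ⟨hn, h⟩) (fun a ha => (mem_filter.1 ha).2)
      (fun a ha a' ha' => by
        simpa [mul_assoc] using
          M.mul_mem (M.inv_mem (mem_co.1 (mem_filter.1 ha).1)) (mem_co.1 (mem_filter.1 ha').1))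
      fun m hm => ⟨cR σ hσ m (mem_filter.1 hm).1, (mem_filter.1 hm).2⟩
    refine le_of_mul_le_mul_left (a1.trans ((mul_le_mul_of_nonneg_left a2 hK).trans_eq ?_)) hpos
    rw [eE]; ring
  have p3 : Nat.card (M ⊓ R0 : Subgroup (Perm Ω)) * Zs A v T ((co x M).filter (· ∉ R0)) (co σ M) ≤
      ((co x M).filter (· ∉ R0)).card * (Nat.card M * (G * K)) := by
    have a1 := avg hA hv hOT hNO (cO x) (fun y hy n hn => cM σ y hy n (hNM hn))
      (fun y hy => hB.ivO y (cR x hx y (mem_filter.1 hy).1))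
      (fun y hy => hB.ivO y (cR σ hσ y hy))
      fun y hy m hm => i2 N hNM hNO y (cR x hx y (mem_filter.1 hy).1) m (cR σ hσ m hm)
    have a2 := out_all (A := A) (X := (co x M).filter (· ∉ R0)) (Y := co σ M) (M := M ⊓ R0) hv hB hR
      hG (fun n hn h => (hNd n).2 ⟨hn.1, h⟩) inf_le_right
      (fun y hy => ⟨cR x hx y (mem_filter.1 hy).1, (mem_filter.1 hy).2⟩) (cR σ hσ)
      fun m hm a ha => cM σ m hm a ha.1
    rw [card_co] at a2
    refine le_of_mul_le_mul_left ?_ hpos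
    rw [mul_left_comm]
    refine (mul_le_mul_of_nonneg_left a1 hpos0.le).trans ?_
    rw [mul_left_comm]
    refine (mul_le_mul_of_nonneg_left a2 hK).trans_eq ?_
    rw [eG]; ring
  rw [zc_eq, Zs_split A v T _ _ R0]
  by_cases hM0 : M ≤ R0
  · rw [inf_eq_left.2 hM0] at p1 p3 hpos0
    have k1 : ∀ z ∈ R0, (co z M).filter (· ∉ R0) = ∅ := fun z hz =>
      filter_eq_empty_iff.2 fun y hy h => h (by simpa using R0.mul_mem hz (hM0 (mem_co.1 hy)))
    have k2 : ∀ z, z ∉ R0 → (co z M).filter (· ∈ R0) = ∅ := fun z hz =>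
      filter_eq_empty_iff.2 fun y hy h => hz (by
        simpa using R0.mul_mem h (R0.inv_mem (hM0 (mem_co.1 hy))))
    have k3 : ∀ z, z ∉ R0 → (((co z M).filter (· ∉ R0)).card : ℝ) = Nat.card M := fun z hz => by
      have := card_filter_add_card_filter_not (s := co z M) (· ∈ R0)
      rw [k2 z hz, card_empty, zero_add, card_co] at this
      exact_mod_cast this
    by_cases hx0 : x ∈ R0
    · rw [k1 x hx0, Zs_left, add_zero]
      by_cases hσ0 : σ ∈ R0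
      · rw [k1 σ hσ0, Zs_right, add_zero]
        exact p1.trans (by gcongr)
      · rw [k2 σ hσ0, Zs_right, zero_add]
        rw [k3 σ hσ0] at p2
        exact p2.trans (by gcongr)
    · rw [k2 x hx0, Zs_left, Zs_left, zero_add, zero_add]
      rw [k3 x hx0] at p3
      exact (le_of_mul_le_mul_left p3 hpos0).trans (by gcongr)
  · rw [out_card hB hM hM0 hσ] at p2
    rw [out_card hB hM hM0 hx, mul_assoc, mul_left_comm] at p3
    have p4 := le_of_mul_le_mul_left p3 hpos0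
    have e : (Nat.card M : ℝ) = p * Nat.card (M ⊓ R0 : Subgroup (Perm Ω)) := by
      exact_mod_cast hB.idx M hM hM0
    rw [e] at p4 ⊢
    have := mul_le_mul_of_nonneg_left h3 (mul_nonneg hpos0.le hK)
    nlinarith

end KL

theorem kl {p : ℕ} (hp : p.Prime) {A v : ℝ} {γ E G : ℕ → ℝ} (hA : 0 ≤ A) (hv : 0 ≤ v)
    (hγ : Monotone γ) (hγ1 : A ≤ γ 1) (hE : HB.{u} p (A ^ p) (v ^ p) E) (hG : HB.{u} p 1 1 G)
    (h1 : ∀ j, E (p ^ j) ≤ γ (p * p ^ j) ^ (p * p ^ j))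
    (h2 : ∀ j, G (p ^ j) * v ^ (p * p ^ j) ≤ γ (p * p ^ j) ^ (p * p ^ j))
    (h3 : ∀ j, γ (p ^ j) ^ (p * p ^ j) + (p - 1) * E (p ^ j) +
      (p - 1) * p * (G (p ^ j) * v ^ (p * p ^ j)) ≤ p * γ (p * p ^ j) ^ (p * p ^ j))
    {Ω : Type u} [Fintype Ω] [DecidableEq Ω] (T : Finset Ω) (R M : Subgroup (Perm Ω))
    (x σ : Perm Ω) (hR : IsPGroup p R) (hT : Iv R T) (hM : M ≤ R) (hS : Sp M T) (hx : x ∈ R)
    (hσ : σ ∈ R) : Zc A v T M x σ ≤ Nat.card M * ∏ ω ∈ T, γ (os R ω) := by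
  classical
  have hγ0 : ∀ n, 1 ≤ n → 0 ≤ γ n := fun n hn => hA.trans (hγ1.trans (hγ hn))
  induction hn : T.card + Nat.card R using Nat.strong_induction_on generalizing T R M x σ with
  | _ n ih =>
  rcases T.eq_empty_or_nonempty with rfl | ⟨ω, hω⟩
  · have : M = ⊥ := (Subgroup.eq_bot_iff_forall _).2 fun y hy =>
      Equiv.ext fun β => hS y hy β (notMem_empty _)
    subst this
    simp [Zc, Cm, Fw, filter_eq']
  by_cases h : ∃ y ∈ R, y ω ≠ ω
  · obtain ⟨R0, O, B, hB, hωO, hO⟩ := exists_blk hp hR h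
    have hOT := hO T hT hω
    obtain ⟨j, hj⟩ := hB.pw
    have hc : O.card = p * p ^ j := by rw [hB.cardO, hj]
    have hpj : 1 ≤ p ^ j := Nat.one_le_pow _ _ hp.pos
    have hK : 0 ≤ ∏ ω ∈ T \ O, γ (os R ω) := prod_nonneg fun β _ => hγ0 _ (os_pos _ _)
    have e : ∏ ω ∈ T, γ (os R ω) = γ (p * p ^ j) ^ (p * p ^ j) * ∏ ω ∈ T \ O, γ (os R ω) := by
      rw [← prod_sdiff hOT, mul_comm, prod_congr rfl fun β hβ => congrArg γ (hB.osO β hβ),
        prod_const, hc]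
    rw [e]
    refine KL.step hA hv hK (pow_nonneg (hγ0 _ hpj) _)
      (pow_le_pow_left₀ (hγ0 _ hpj) (hγ (Nat.le_mul_of_pos_left _ hp.pos)) _) hE hG hB
      (by rw [hj]) (by rw [hj, hc]) (h1 j) (h2 j) (h3 j) hR hOT hM hx hσ
      (fun y hy m hm => ?_) fun N hN hNO y hy m hm => ?_
    · refine (ih _ (by have := hB.lt; omega) T R0 (M ⊓ R0) y m (hR.to_le hB.le)
        (fun z hz => hT z (hB.le hz)) inf_le_right (fun z hz => hS z hz.1) hy hm rfl).trans ?_
      refine mul_le_mul_of_nonneg_left ?_ (Nat.cast_nonneg _)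
      rw [← prod_sdiff hOT, mul_comm, prod_congr rfl fun β hβ => congrArg γ (hB.os0 β hβ),
        prod_const, hc, hj]
      exact mul_le_mul_of_nonneg_left
        (prod_le_prod (fun β _ => hγ0 _ (os_pos _ _)) fun β _ => hγ (os_mono hB.le β))
        (pow_nonneg (hγ0 _ hpj) _)
    · have hlt : (T \ O).card < T.card := card_lt_card (sdiff_ssubset hOT ⟨ω, hωO⟩)
      refine ih _ (by omega) (T \ O) R N y m hR (KL.iv_sdiff hT hB.ivO) (hN.trans hM)
        (fun z hz β hβ => ?_) hy hm rfl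
      by_cases hb : β ∈ O
      · exact hNO z hz β hb
      · exact hS z (hN hz) β fun h => hβ (mem_sdiff.2 ⟨h, hb⟩)
  · have h : ∀ y ∈ R, y ω = ω := by simpa using h
    have hOT : ({ω} : Finset Ω) ⊆ T := by simpa using hω
    have hlt : (T \ {ω}).card < T.card := card_lt_card (sdiff_ssubset hOT (singleton_nonempty _))
    have i := ih _ (by omega) (T \ {ω}) R M x σ hR
      (KL.iv_sdiff hT fun y hy β hβ => by rw [mem_singleton.1 hβ, h y hy]; simp) hM
      (fun z hz β hβ => by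
        by_cases hb : β = ω
        · rw [hb]; exact h z (hM hz)
        · exact hS z hz β fun h => hβ (mem_sdiff.2 ⟨h, by simpa using hb⟩)) hx hσ rfl
    have e : Zc A v T M x σ = A * Zc A v (T \ {ω}) M x σ := by
      simp only [Zc, mul_sum]
      refine sum_congr rfl fun a ha => sum_congr rfl fun b hb => ?_
      have ha := h _ (R.mul_mem hx (hM (mem_filter.1 ha).2))
      have hb := h _ (R.mul_mem hσ (hM (mem_filter.1 hb).2))
      refine (KL.ff_split hOT).trans ?_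
      have : KL.ff A v {ω} (x * a) (σ * b) = A := by
        rw [KL.ff, if_pos, Fw, prod_singleton, if_pos ha]
        intro β hβ
        rw [mem_singleton.1 hβ, ha, hb, ha]
      rw [this]; rfl
    rw [e, ← prod_sdiff hOT, prod_singleton, os_fix h, ← mul_assoc, mul_comm]
    exact mul_le_mul i hγ1 hA
      (mul_nonneg (Nat.cast_nonneg _) (prod_nonneg fun β _ => hγ0 _ (os_pos _ _)))

end Cfsg.Lib.KP2
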