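import Cfsg.Agent.KP2.Defs

/-! Conjugacy classes of permutation groups: passing from one prime to the next. -/

set_option autoImplicit false
set_option linter.unusedSectionVars false

namespace Cfsg.Lib.KP2

open Subgroup MulAction Finset Equiv Cfsg.Lib.KPerm

universe u v

theorem bd_two : Bd1.{u, v} 2 fun n => (1 : ℝ) ^ n := by
  intro Ω _ _ H _ _ ρ _
  have h2 : Nat.card (Sm 2 H) ≤ 1 := by
    refine Finite.card_le_one_iff_subsingleton.2 ⟨?_⟩
    have key : ∀ g : H, (∀ q : ℕ, q.Prime → q ∣ orderOf g → q < 2) → g = 1 := fun g hg => by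
      by_contra hne
      obtain ⟨q, hq, hd⟩ := Nat.exists_prime_and_dvd (mt orderOf_eq_one_iff.1 hne)
      exact absurd (hg q hq hd) (not_lt.2 hq.two_le)
    rintro ⟨_, g, rfl, hg⟩ ⟨_, g', rfl, hg'⟩
    exact Subtype.ext (congrArg ConjClasses.mk ((key g hg).trans (key g' hg').symm))
  change (Nat.card (Sm 2 H) : ℝ) ≤ 1 ^ _
  rw [one_pow]
  exact_mod_cast h2

theorem Bd1.mono {N : ℕ} {W W' : ℕ → ℝ} (h : Bd1.{u, v} N W) (hW : ∀ n, W n ≤ W' n) :
    Bd1.{u, v} N W' :=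
  fun Ω _ _ H _ _ ρ hρ => (h Ω H ρ hρ).trans (hW _)

theorem sm_skip {N : ℕ} (hN : ¬ N.Prime) (H : Type v) [Group H] : Sm (N + 1) H = Sm N H := by
  ext c
  refine exists_congr fun g => and_congr_right fun _ => forall₃_congr fun q hq _ => ?_
  have : q ≠ N := fun e => hN (e ▸ hq)
  omega

theorem Bd1.skip {N : ℕ} {W : ℕ → ℝ} (h : Bd1.{u, v} N W) (hN : ¬ N.Prime) :
    Bd1.{u, v} (N + 1) W := by
  intro Ω _ _ H _ _ ρ hρ
  rw [sm_skip hN]
  exact h Ω H ρ fun q hq hl => hρ q hq (by omega)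

theorem Bd1.cen {p : ℕ} (hp : p.Prime) {W : ℕ → ℝ} (h : Bd1.{u, v} p W) {Ω : Type u} [Fintype Ω]
    [DecidableEq Ω] {H : Type v} [Group H] [Finite H] (ρ : H →* Perm Ω)
    (hρ : ∀ q : ℕ, q.Prime → q < p → ¬ q ∣ Nat.card ρ.ker) {x : H} {k : ℕ} (hx : x ^ p ^ k = 1) :
    (Nat.card (Sm p (centralizer ({x} : Set H))) : ℝ) ≤ W (Nat.card (Cyc (ρ x))) := by
  classical
  have := Fintype.ofFinite (Cyc (ρ x))
  have hc : ∀ c : centralizer ({x} : Set H),
      Commute (ρ.comp (centralizer ({x} : Set H)).subtype c) (ρ x) := fun c =>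
    Commute.map (mem_centralizer_singleton_iff.1 c.2 : Commute (c : H) x) ρ
  rw [Nat.card_eq_fintype_card (α := Cyc (ρ x))]
  refine h _ _ (cycHom _ _ hc) fun q hq hl hd => ?_
  have := Fact.mk hq
  obtain ⟨c, hc'⟩ := exists_prime_orderOf_dvd_card' q hd
  have h1 : ρ (c.1 : H) ^ p ^ k = 1 := pow_eq_one_of_cycHom _ _ hc
    (by rw [← map_pow, hx, map_one]) c.2
  have h3 : orderOf (c.1 : H) = q := by rw [Subgroup.orderOf_coe, Subgroup.orderOf_coe, hc']
  have h4 : ρ (c.1 : H) = 1 := by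
    rw [← orderOf_eq_one_iff]
    refine Nat.eq_one_of_dvd_coprimes (((Nat.coprime_primes hq hp).2 hl.ne).pow_right k)
      (h3 ▸ orderOf_map_dvd ρ _) (orderOf_dvd_of_pow_eq_one h1)
  exact hρ q hq hl (h3 ▸ ρ.ker.orderOf_dvd_natCard h4)

theorem Bd1.es {p : ℕ} (hp : p.Prime) {A w v B : ℝ} (h : Bd1.{u, v} p fun n => A ^ n) (hA : 0 ≤ A)
    (hB : 0 ≤ B) (hw : 1 ≤ w) (hv : 1 ≤ v) (hpw : (p : ℝ) ≤ w ^ (p - 1)) (hAv : A ≤ v ^ p)
    (hs : A ^ p + (w * v) ^ p ≤ B ^ p) : Bd1.{u, v} (p + 1) fun n => B ^ n := by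
  classical
  intro Ω _ _ H _ _ ρ hρ
  have := Fact.mk hp
  obtain ⟨P⟩ : Nonempty (Sylow p H) := inferInstance
  have := Fintype.ofFinite P
  have hinj := inj_sylow ρ (hρ p hp (by omega)) P.isPGroup'
  have h2 : ∀ x : P, (Nat.card (Sm p (centralizer ({(x : H)} : Set H))) : ℝ) ≤
      A ^ Nat.card (Cyc (ρ x)) := by
    intro x
    obtain ⟨k, hk⟩ := P.isPGroup' x
    exact h.cen hp ρ (fun q hq hl => hρ q hq (by omega)) (k := k) (congrArg Subtype.val hk)
  let e := MonoidHom.ofInjective hinj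
  have := Fintype.ofFinite (ρ.comp (P : Subgroup H).subtype).range
  calc (Nat.card (Sm (p + 1) H) : ℝ)
      ≤ ∑ x : P, (Nat.card (Sm p (centralizer ({(x : H)} : Set H))) : ℝ) := by
        have := card_sm_succ P
        exact_mod_cast this
    _ ≤ ∑ x : P, A ^ Nat.card (Cyc (ρ x)) := sum_le_sum fun x _ => h2 x
    _ = ∑ x : (ρ.comp (P : Subgroup H).subtype).range, A ^ Nat.card (Cyc (x : Perm Ω)) :=
        Fintype.sum_equiv e.toEquiv _ _ fun x => rfl
    _ ≤ B ^ Fintype.card Ω :=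
        sum_le (P.isPGroup'.of_surjective e.toMonoidHom e.surjective) hA hB hw hv hpw hAv hs

theorem Step_cen_one (N : ℕ) (H : Type v) [Group H] [Finite H] :
    Nat.card (Sm N (centralizer ({1} : Set H))) ≤ Nat.card (Sm N H) := by
  let f : H →* centralizer ({1} : Set H) :=
    (MonoidHom.id H).codRestrict _ fun x => mem_centralizer_singleton_iff.2 (by simp)
  let F : Sm N H → ConjClasses (centralizer ({1} : Set H)) := fun c => ConjClasses.map f c.1
  refine le_trans (Nat.card_mono (Set.toFinite _) (t := Set.range F) ?_)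
    (Nat.card_le_card_of_surjective _ Set.rangeFactorization_surjective)
  rintro _ ⟨g, rfl, hg⟩
  exact ⟨⟨ConjClasses.mk (g : H), g, rfl, fun q hq hd => hg q hq (Subgroup.orderOf_coe g ▸ hd)⟩,
    rfl⟩

open Classical in
theorem Bd1.top {p : ℕ} (hp : p.Prime) {W : ℕ → ℝ} (h : Bd1.{u, u} p W) {Ω : Type u} [Fintype Ω]
    [DecidableEq Ω] (S : Subgroup (Perm Ω)) :
    ∃ P : Subgroup (Perm Ω), P ≤ S ∧ IsPGroup p P ∧ (Nat.card (Sm (p + 1) S) : ℝ) ≤
      Nat.card (Sm p S) + ∑ x ∈ univ.filter (fun x => x ∈ P ∧ x ≠ 1), W (Nat.card (Cyc x)) := by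
  have := Fact.mk hp
  obtain ⟨P⟩ : Nonempty (Sylow p S) := inferInstance
  have := Fintype.ofFinite P
  refine ⟨(P : Subgroup S).map S.subtype, map_subtype_le _, P.isPGroup'.map _, ?_⟩
  have h2 : ∀ x : P, (Nat.card (Sm p (centralizer ({(x : S)} : Set S))) : ℝ) ≤
      W (Nat.card (Cyc ((x : S) : Perm Ω))) := by
    intro x
    obtain ⟨k, hk⟩ := P.isPGroup' x
    refine h.cen hp S.subtype (fun q hq _ hd => ?_) (k := k) (congrArg Subtype.val hk)
    rw [ker_subtype, card_bot] at hd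
    exact hq.one_lt.ne' (Nat.dvd_one.1 hd)
  have h1 : (Nat.card (Sm (p + 1) S) : ℝ) ≤
      ∑ x : P, (Nat.card (Sm p (centralizer ({(x : S)} : Set S))) : ℝ) := by
    have := card_sm_succ P
    exact_mod_cast this
  let o : P := ⟨1, one_mem (P : Subgroup S)⟩
  refine (h1.trans (add_sum_erase univ _ (mem_univ o)).ge).trans
    (add_le_add ?_ ((sum_le_sum fun x _ => h2 x).trans (le_of_eq ?_)))
  · exact_mod_cast Step_cen_one p S
  · refine sum_bij (fun x _ => ((x : S) : Perm Ω)) ?_ ?_ ?_ fun _ _ => rfl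
    · intro x hx
      refine mem_filter.2 ⟨mem_univ _, ⟨x, x.2, rfl⟩, fun e => ?_⟩
      exact ne_of_mem_erase hx (Subtype.ext (Subtype.ext e))
    · intro x _ y _ e
      exact Subtype.ext (Subtype.ext e)
    · intro y hy
      obtain ⟨-, ⟨x, hx, rfl⟩, hne⟩ := mem_filter.1 hy
      refine ⟨⟨x, hx⟩, mem_erase.2 ⟨fun e => hne ?_, mem_univ _⟩, rfl⟩
      have : x = 1 := congrArg Subtype.val e
      rw [this]; rfl

end Cfsg.Lib.KP2
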