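import Cfsg.Agent.KP2.KL
import Cfsg.Agent.KP2.HB
import Cfsg.Agent.KP2.CS
import Cfsg.Agent.KP2.Step

/-! The number of classes of `2`-elements of a permutation group. -/

set_option autoImplicit false
set_option linter.unusedSectionVars false

namespace Cfsg.Lib.KP2

open Subgroup MulAction Finset Equiv Cfsg.Lib.KPerm

universe u v

theorem N2_pow {s : ℕ} (h : 4 ≤ s) : 3 * (2 : ℝ) ^ (s - 1) ≤ A2 ^ (2 * s) := by
  induction s, h using Nat.le_induction with
  | base => norm_num [A2]
  | succ n hn ih =>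
    have h2 : (2 : ℝ) ≤ A2 ^ 2 := by norm_num [A2]
    calc 3 * (2 : ℝ) ^ (n + 1 - 1) = 3 * 2 ^ (n - 1) * 2 := by
          rw [show n + 1 - 1 = n - 1 + 1 by omega, pow_succ, mul_assoc]
      _ ≤ A2 ^ (2 * n) * A2 ^ 2 := mul_le_mul ih h2 (by norm_num) (by rw [A2]; positivity)
      _ = _ := by rw [← pow_add, Nat.mul_succ]

theorem bd3 : Bd1.{u, v} 3 fun n => A2 ^ (n - n % 2) := by
  classical
  refine Bd1.cs Nat.prime_two bd_two zero_le_one le_rfl (by norm_num) fun Ω _ _ R hR => ?_
  let γ : ℕ → ℝ := fun t => if t ≤ 1 then 1 else if t ≤ 2 then 14143 / 10000 else A2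
  have hb := hb_card.{u} Nat.prime_two (w := 2) (by norm_num) (by norm_num)
  have g0 : ∀ t, 0 ≤ γ t ∧ γ t ≤ A2 := fun t => by
    simp only [γ, A2]; split_ifs <;> norm_num
  have h1 : ∀ j, (2 : ℝ) ^ (2 ^ j - 1) ≤ γ (2 * 2 ^ j) ^ (2 * 2 ^ j) := fun j => by
    have hj : 1 ≤ 2 ^ j := Nat.one_le_two_pow
    have : (2 : ℝ) ≤ γ (2 * 2 ^ j) ^ 2 := by
      simp only [γ, A2]; split_ifs
      · omega
      all_goals norm_num
    rw [pow_mul]
    exact (pow_le_pow_right₀ (by norm_num) (Nat.sub_le _ _)).trans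
      (pow_le_pow_left₀ (by norm_num) this _)
  refine (kl Nat.prime_two (γ := γ) zero_le_one zero_le_one ?_ (by simp [γ])
    (by rw [one_pow]; exact hb) hb h1 (fun j => by rw [one_pow, mul_one]; exact h1 j) ?_ univ R R 1 1
    hR (fun _ _ _ _ => mem_univ _) le_rfl (fun _ _ _ h => absurd (mem_univ _) h) (one_mem _)
    (one_mem _)).trans (mul_le_mul_of_nonneg_left ?_ (Nat.cast_nonneg _))
  · intro a b hab
    simp only [γ, A2]
    split_ifs <;> first | omega | norm_num
  · intro j
    rcases j with _ | _ | j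
    · norm_num [γ]
    · norm_num [γ, A2]
    · have hj : 4 ≤ 2 ^ (j + 1 + 1) := by
        have : 1 ≤ 2 ^ j := Nat.one_le_two_pow
        rw [pow_succ, pow_succ]; omega
      have := N2_pow hj
      simp only [γ]
      rw [if_neg (by omega), if_neg (by omega), if_neg (by omega), if_neg (by omega), one_pow]
      push_cast
      linarith
  · have key : ∀ T : Finset Ω, ∏ ω ∈ T, γ (os R ω) ≤ A2 ^ T.card := fun T => by
      rw [← prod_const]
      exact prod_le_prod (fun _ _ => (g0 _).1) fun _ _ => (g0 _).2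
    rcases Nat.mod_two_eq_zero_or_one (Fintype.card Ω) with e | e
    · rw [e]; exact key univ
    · have := Fact.mk Nat.prime_two
      obtain ⟨ω, hω⟩ := hR.nonempty_fixed_point_of_prime_not_dvd_card Ω (by
        rw [Nat.card_eq_fintype_card]; omega)
      rw [← mul_prod_erase _ _ (mem_univ ω), os_fix fun y hy => hω ⟨y, hy⟩, e, ← card_univ,
        ← card_erase_of_mem (mem_univ ω)]
      simpa [γ] using key (univ.erase ω)

theorem bd3' : Bd1.{u, v} 3 fun n => A2 ^ n :=
  bd3.mono fun n => pow_le_pow_right₀ (by norm_num [A2]) (Nat.sub_le _ _)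

end Cfsg.Lib.KP2
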