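import Cfsg.Agent.KP2.KL
import Cfsg.Agent.KP2.HB
import Cfsg.Agent.KP2.CS
import Cfsg.Agent.KP2.Step
import Cfsg.Agent.KP2.N2

/-! Bounds for the classes of `{2, 3}`-, `{2, 3, 5}`- and `{2, 3, 5, 7}`-elements. -/

set_option autoImplicit false
set_option linter.unusedSectionVars false
set_option maxHeartbeats 400000

namespace Cfsg.Lib.KP2

open Subgroup MulAction Finset Equiv Cfsg.Lib.KPerm

universe u v

theorem cs_odd {p : ℕ} (hp : p.Prime) {A v w C B : ℝ} (h : Bd1.{u, v} p fun n => A ^ n)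
    (hA : 1 ≤ A) (hv : 1 ≤ v) (hw : 1 ≤ w) (hC : 0 ≤ C) (hB : 0 ≤ B) (hAv : A ≤ v ^ p)
    (hpw : (p : ℝ) ≤ w ^ (p - 1)) (hs : (A ^ p) ^ p + (w * v ^ p) ^ p ≤ C ^ p)
    (hb : A ^ p + (p - 1) * v ^ p ≤ B ^ p)
    (hl : C ^ p + p * (w * v ^ p) ^ p ≤ (B ^ p) ^ p) : Bd1.{u, v} (p + 1) fun n => B ^ n := by
  have A0 : 0 ≤ A := zero_le_one.trans hA
  have v0 : 0 ≤ v := zero_le_one.trans hv
  have w0 : 0 ≤ w := zero_le_one.trans hw
  have p2 : (2 : ℝ) ≤ p := by exact_mod_cast hp.two_le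
  have vp : 0 ≤ v ^ p := pow_nonneg v0 p
  have X0 : 0 ≤ B ^ p := pow_nonneg hB p
  have D0 : 0 ≤ w * v ^ p := mul_nonneg w0 vp
  have Dp : 0 ≤ (w * v ^ p) ^ p := pow_nonneg D0 p
  have Cp : 0 ≤ C ^ p := pow_nonneg hC p
  have AB' : A ^ p ≤ B ^ p := by nlinarith
  have AB : A ≤ B := le_of_pow_le_pow_left₀ hp.ne_zero hB AB'
  have CX : C ≤ B ^ p := le_of_pow_le_pow_left₀ hp.ne_zero X0 (by nlinarith)
  have DX : w * v ^ p ≤ B ^ p := le_of_pow_le_pow_left₀ hp.ne_zero X0 (by nlinarith)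
  have GD : ∀ s : ℕ, w ^ (s - 1) * v ^ (p * s) ≤ (w * v ^ p) ^ s := fun s => by
    rw [mul_pow, ← pow_mul]
    exact mul_le_mul_of_nonneg_right (pow_le_pow_right₀ hw (Nat.sub_le s 1)) (pow_nonneg v0 _)
  have big : ∀ j : ℕ, ¬ p * p ^ j ≤ 1 := fun j => by
    have := Nat.mul_le_mul hp.two_le (Nat.one_le_pow j p hp.pos)
    omega
  have sp : ∀ j : ℕ, ∃ t, p ^ (j + 1) = p + t := fun j =>
    Nat.exists_eq_add_of_le (Nat.le_self_pow (by omega) p)
  refine h.cs hp A0 hv hAv fun Ω _ _ R hR => ?_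
  refine (kl (γ := fun t => if t ≤ 1 then A else B) hp A0 v0 ?_ (by simp)
    (hb_pow hp (pow_nonneg A0 p) hC hw (one_le_pow₀ hv) hpw hs) (hb_card hp hw hpw) ?_ ?_ ?_
    univ R R 1 1 hR (fun _ _ _ _ => mem_univ _) le_rfl (fun _ _ ω hω => absurd (mem_univ ω) hω)
    (one_mem _) (one_mem _)).trans ?_
  · intro a b hab
    dsimp only
    split_ifs with h1 h2 h2
    · exact le_rfl
    · exact AB
    · omega
    · exact le_rfl
  · intro j
    rw [if_neg (big j), pow_mul]
    split_ifs with e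
    · rw [e, pow_one]; exact AB'
    · exact pow_le_pow_left₀ hC CX _
  · intro j
    rw [if_neg (big j), pow_mul B]
    exact (GD _).trans (pow_le_pow_left₀ D0 DX _)
  · intro j
    rw [if_neg (big j)]
    rcases j with _ | j
    · simp only [pow_zero, mul_one, le_refl, if_true, Nat.sub_self, one_mul]
      nlinarith
    · have e1 := big j
      rw [← pow_succ'] at e1
      rw [if_neg e1, if_neg (by omega), pow_mul B]
      have e2 := GD (p ^ (j + 1))
      obtain ⟨t, ht⟩ := sp j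
      have e3 : C ^ p ^ (j + 1) + p * (w * v ^ p) ^ p ^ (j + 1) ≤ (B ^ p) ^ p ^ (j + 1) := by
        rw [ht, pow_add, pow_add, pow_add]
        have f1 := pow_le_pow_left₀ hC CX t
        have f2 := pow_le_pow_left₀ D0 DX t
        have f3 := mul_le_mul_of_nonneg_left f1 Cp
        have f4 := mul_le_mul_of_nonneg_left f2 (mul_nonneg (zero_le_two.trans p2) Dp)
        have f5 := mul_le_mul_of_nonneg_right hl (pow_nonneg X0 t)
        nlinarith
      have e4 := mul_le_mul_of_nonneg_left e2 (zero_le_two.trans p2)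
      have e5 := mul_le_mul_of_nonneg_left ((add_le_add_right e4 _).trans e3)
        (show (0 : ℝ) ≤ p - 1 by linarith)
      nlinarith
  · refine mul_le_mul_of_nonneg_left ?_ (Nat.cast_nonneg _)
    rw [← card_univ, ← prod_const]
    refine prod_le_prod (fun _ _ => ?_) fun _ _ => ?_ <;> split_ifs
    exacts [A0, hB, AB, le_rfl]

theorem bd5 : Bd1.{u, v} 5 fun n => A3 ^ n :=
  (cs_odd Nat.prime_three (v := 2859 / 2500) (w := 1733 / 1000) (C := 3799 / 1000) bd3'
    (by norm_num [A2]) (by norm_num) (by norm_num) (by norm_num) (by norm_num [A3])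
    (by norm_num [A2]) (by norm_num) (by norm_num [A2]) (by norm_num [A2, A3])
    (by norm_num [A3])).skip (by norm_num)

theorem bd7 : Bd1.{u, v} 7 fun n => A5 ^ n :=
  (cs_odd Nat.prime_five (v := 1131 / 1000) (w := 187 / 125) (C := 10847 / 500) bd5
    (by norm_num [A3]) (by norm_num) (by norm_num) (by norm_num) (by norm_num [A5])
    (by norm_num [A3]) (by norm_num) (by norm_num [A3]) (by norm_num [A3, A5])
    (by norm_num [A5])).skip (by norm_num)

theorem bd11 : Bd1.{u, v} 11 fun n => A7 ^ n :=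
  (((cs_odd (p := 7) (by norm_num) (v := 2753 / 2500) (w := 173 / 125) (C := 112077 / 1000) bd7
    (by norm_num [A5]) (by norm_num) (by norm_num) (by norm_num) (by norm_num [A7])
    (by norm_num [A5]) (by norm_num) (by norm_num [A5]) (by norm_num [A5, A7])
    (by norm_num [A7])).skip (by norm_num)).skip (by norm_num)).skip (by norm_num)

end Cfsg.Lib.KP2
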