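import Cfsg.Agent.KP2.Defs

/-! The numerical inequality for degrees between 25 and 230. -/

set_option autoImplicit false

namespace Cfsg.Lib.KP2

theorem Num.nat : ∀ n < 231, 25 ≤ n → 2 * (9 * 18504 ^ n + 3 * 19700 ^ n + 2 * 19910 ^ n +
    12 * 19940 ^ n) ≤ 12 * 20000 ^ n + 2 * (2 * 19624 ^ n + 12 * 19907 ^ n) := by decide +kernel

theorem num_mid (n : ℕ) (h1 : 25 ≤ n) (h2 : n ≤ 230) :
    2 * (A3 ^ n + 1 / 4 * ((197 / 100 : ℝ) ^ n - A3 ^ n) + 1 / 6 * ((1991 / 1000 : ℝ) ^ n - A5 ^ n) +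
      ((997 / 500 : ℝ) ^ n - A7 ^ n)) ≤ 2 ^ n := by
  have h : (2 * (9 * 18504 ^ n + 3 * 19700 ^ n + 2 * 19910 ^ n + 12 * 19940 ^ n) : ℝ) ≤
      12 * 20000 ^ n + 2 * (2 * 19624 ^ n + 12 * 19907 ^ n) := by
    exact_mod_cast Num.nat n (by omega) h1
  have e : ∀ a b : ℝ, a = b / 10000 → a ^ n = b ^ n / 10000 ^ n := fun a b k => by rw [k, div_pow]
  have p : (0 : ℝ) < 10000 ^ n := by positivity
  rw [e A3 18504 (by norm_num [A3]), e A5 19624 (by norm_num [A5]), e A7 19907 (by norm_num [A7]),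
    e (197 / 100) 19700 (by norm_num), e (1991 / 1000) 19910 (by norm_num),
    e (997 / 500) 19940 (by norm_num), e 2 20000 (by norm_num), le_div_iff₀ p]
  field_simp
  linarith

end Cfsg.Lib.KP2
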