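import Cfsg.Agent.KP2.TL
import Cfsg.Agent.KP2.HB

/-! The contribution of the non-trivial `5`- and `7`-elements. -/

set_option autoImplicit false
set_option linter.unusedSectionVars false

namespace Cfsg.Lib.KP2

open Subgroup MulAction Finset Equiv Cfsg.Lib.KPerm

universe u v

theorem t5_step {x e v w b d c : ℝ} {n m q : ℕ} (hv : 0 ≤ v) (hw : 0 ≤ w) (hc : 0 ≤ c) (hd : 0 ≤ d)
    (he : 0 ≤ e) (hvw : v * w ≤ b) (hbx : b ≤ x) (hm : m ≤ n) (t3 : v * (v * w) ^ m ≤ d * b ^ m)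
    (hq : q = n + 1) (hed : c * (q * e) = d) : c * x ^ q + v ^ q * w ^ (q - 1) ≤ c * (x + e) ^ q := by
  subst hq
  have h0 : 0 ≤ v * w := mul_nonneg hv hw
  have hb : 0 ≤ b := h0.trans hvw
  have hx : 0 ≤ x := hb.trans hbx
  have h1 := pow_add_mul_le_add_pow hx (by positivity : 0 ≤ 2 * x + e) (n + 1)
  rw [Nat.add_sub_cancel] at h1 ⊢
  obtain ⟨k, rfl⟩ := Nat.exists_eq_add_of_le hm
  have h2 : v ^ (m + k + 1) * w ^ (m + k) ≤ d * x ^ (m + k) :=
    calc _ = v * (v * w) ^ m * (v * w) ^ k := by ring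
      _ ≤ d * b ^ m * b ^ k := by gcongr
      _ = d * b ^ (m + k) := by ring
      _ ≤ _ := by gcongr
  have h3 := mul_le_mul_of_nonneg_left h1 hc
  rw [← hed] at h2
  linarith

open Classical in
theorem t5_gen {p : ℕ} (hp : p.Prime) {A v b w g c d : ℝ} {m : ℕ} (hA : 0 ≤ A) (hv : 1 ≤ v)
    (hAv : A ≤ v ^ p) (hw : 1 ≤ w) (hpw : (p : ℝ) ≤ w ^ (p - 1)) (hc : 0 ≤ c) (hc1 : c ≤ 1)
    (hcp : (p - 1) * c = 1) (hd : 0 ≤ d) (hAb : A ≤ b) (hbg : b ≤ g - d / p)
    (t1 : c * A ^ p + v ^ p ≤ c * b ^ p)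
    (t2 : c * b ^ (p * p) + v ^ (p * p) * w ^ (p * p - 1) ≤ c * (g - d / (p * p)) ^ (p * p))
    (hm : m < p * p ^ 2) (hvw : v * w ≤ b) (t3 : v * (v * w) ^ m ≤ d * b ^ m)
    {Ω : Type u} [Fintype Ω] [DecidableEq Ω] {P : Subgroup (Perm Ω)} (hpP : IsPGroup p P)
    (hD : ∀ a ∈ P, a ≠ 1 → p < a.support.card) :
    ∑ x ∈ univ.filter (fun x => x ∈ P ∧ x ≠ 1), A ^ Nat.card (Cyc x) ≤
      c * (g ^ Fintype.card Ω - A ^ Fintype.card Ω) := by
  have := Fact.mk hp
  have p1 := hp.one_lt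
  have p0 : (0 : ℝ) < p := Nat.cast_pos.2 hp.pos
  have v0 : 0 ≤ v := zero_le_one.trans hv
  have k1 : ∀ {s t : ℕ}, 0 < s → s ≤ t → g - d / s ≤ g - d / t := fun {s t} h1 h2 => by
    have : (0 : ℝ) < s := Nat.cast_pos.2 h1
    have : (s : ℝ) ≤ t := Nat.cast_le.2 h2
    gcongr
  have k2 : ∀ {t : ℕ}, ¬ t ≤ p → b ≤ g - d / t := fun h => hbg.trans (k1 hp.pos (not_le.1 h).le)
  have k3 : ∀ t : ℕ, g - d / t ≤ g := fun t => sub_le_self _ (by positivity)
  let γ : ℕ → ℝ := fun t => if t ≤ 1 then A else if t ≤ p then b else g - d / t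
  have g1 : γ 1 = A := if_pos le_rfl
  have gp : γ p = b := (if_neg (by omega)).trans (if_pos le_rfl)
  have gt : ∀ {t}, p < t → γ t = g - d / t := fun h => (if_neg (by omega)).trans (if_neg (by omega))
  have hγ : Monotone γ := fun s t h => by
    simp only [γ]
    split_ifs
    all_goals first | omega | exact le_rfl | exact hAb | exact hAb.trans (k2 ‹_›) | exact k2 ‹_› |
      exact k1 (by omega) h
  have γ0 : ∀ t, 0 ≤ γ t := fun t => le_trans hA (hγ (Nat.zero_le t))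
  have γg : ∀ t, γ t ≤ g := fun t => by
    simp only [γ]
    split_ifs
    exacts [hAb.trans (hbg.trans (k3 p)), hbg.trans (k3 p), k3 t]
  have key := tl hp hA v0 hc hc1 hcp.le hγ g1.ge (hb_card hp hw hpw) (by rwa [g1, gp]) (fun j hj => by
    rcases hj.eq_or_lt with rfl | hj
    · rw [pow_one, gp, gt (by nlinarith)]
      exact_mod_cast t2
    · have a1 : p ^ 2 ≤ p ^ j := Nat.pow_le_pow_right hp.pos hj
      have a2 : p < p ^ j := lt_of_lt_of_le (by nlinarith) a1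
      have a3 : m < p * p ^ j := hm.trans_le (Nat.mul_le_mul_left _ a1)
      have a4 : (0 : ℝ) < p ^ j := by positivity
      have a5 : (0 : ℝ) ≤ p - 1 := sub_nonneg.2 (Nat.one_le_cast.2 p1.le)
      rw [gt a2, gt (by nlinarith), show g - d / (p * p ^ j : ℕ) =
        g - d / (p ^ j : ℕ) + d * (p - 1) / (p * p ^ j) by push_cast; field_simp; ring]
      refine t5_step (n := p * p ^ j - 1) v0 (zero_le_one.trans hw) hc hd (by positivity) hvw
        (k2 a2.not_ge) (by omega) t3 (by omega) ?_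
      push_cast
      field_simp
      linear_combination d * hcp) univ P P 1 hpP (fun _ _ _ _ => mem_univ _) le_rfl
      (fun _ _ _ h => absurd (mem_univ _) h) (one_mem _) hD
  refine le_trans ?_ (key.trans (mul_le_mul_of_nonneg_left (sub_le_sub_right ?_ _) hc))
  · unfold Ze
    rw [sum_filter, sum_filter]
    refine sum_le_sum fun a _ => ?_
    rw [one_mul]
    by_cases h1 : a ∈ P
    · by_cases h2 : a = 1
      · simp [h2]
      · obtain ⟨k, hk⟩ := hpP ⟨a, h1⟩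
        rw [if_pos ⟨h1, h2⟩, if_pos h1, if_neg fun e => h2 (Equiv.ext fun ω => e ω (mem_univ ω))]
        exact pow_cyc_le (congrArg Subtype.val hk) hA hv hAv
    · simp [h1]
  · rw [← card_univ, ← prod_const]
    exact prod_le_prod (fun _ _ => γ0 _) fun _ _ => γg _

open Classical in
theorem top5 {Ω : Type u} [Fintype Ω] [DecidableEq Ω] {P : Subgroup (Perm Ω)} (hpP : IsPGroup 5 P)
    (hD : ∀ a ∈ P, a ≠ 1 → 5 < a.support.card) :
    ∑ x ∈ univ.filter (fun x => x ∈ P ∧ x ≠ 1), A3 ^ Nat.card (Cyc x) ≤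
      1 / 4 * ((197 / 100 : ℝ) ^ Fintype.card Ω - A3 ^ Fintype.card Ω) :=
  t5_gen Nat.prime_five (v := 1131 / 1000) (b := A5) (w := 187 / 125) (d := 1 / 1000) (m := 60)
    (by norm_num [A3]) (by norm_num) (by norm_num [A3]) (by norm_num) (by norm_num) (by norm_num)
    (by norm_num) (by norm_num) (by norm_num) (by norm_num [A3, A5]) (by norm_num [A5])
    (by norm_num [A3, A5]) (by norm_num [A5]) (by norm_num) (by norm_num [A5]) (by norm_num [A5])
    hpP hD

open Classical in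
theorem top7 {Ω : Type u} [Fintype Ω] [DecidableEq Ω] {P : Subgroup (Perm Ω)} (hpP : IsPGroup 7 P)
    (hD : ∀ a ∈ P, a ≠ 1 → 7 < a.support.card) :
    ∑ x ∈ univ.filter (fun x => x ∈ P ∧ x ≠ 1), A5 ^ Nat.card (Cyc x) ≤
      1 / 6 * ((1991 / 1000 : ℝ) ^ Fintype.card Ω - A5 ^ Fintype.card Ω) :=
  t5_gen (by norm_num) (v := 2753 / 2500) (b := A7) (w := 173 / 125) (d := 1 / 1000) (m := 60)
    (by norm_num [A5]) (by norm_num) (by norm_num [A5]) (by norm_num) (by norm_num) (by norm_num)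
    (by norm_num) (by norm_num) (by norm_num) (by norm_num [A5, A7]) (by norm_num [A7])
    (by norm_num [A5, A7]) (by norm_num [A7]) (by norm_num) (by norm_num [A7]) (by norm_num [A7])
    hpP hD

end Cfsg.Lib.KP2
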