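import Cfsg.Agent.KP2.Tele
import Cfsg.Agent.KP2.Cr
import Cfsg.Agent.KP2.T5
import Cfsg.Agent.KP2.Num
import Cfsg.Agent.KP2.N2
import Cfsg.Agent.KP2.N3
import Cfsg.Agent.KP2.Step

/-! Primitive groups not containing the alternating group. -/

set_option autoImplicit false
set_option linter.unusedSectionVars false

namespace Cfsg.Lib.KP2

open Subgroup MulAction Finset Equiv Cfsg.Lib.KPerm

universe u v

theorem prim_bd {N : ℕ} {W : ℕ → ℝ} (h : Bd1.{u, u} N W) {Ω : Type u} [Fintype Ω] [DecidableEq Ω]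
    (S : Subgroup (Perm Ω)) : (Nat.card (Sm N S) : ℝ) ≤ W (Fintype.card Ω) :=
  h Ω S S.subtype fun q hq _ => by rw [ker_subtype, card_bot]; exact hq.not_dvd_one

theorem prim_mono {A : ℝ} (h : 1 ≤ A) : Monotone fun n : ℕ => A ^ n := fun _ _ e =>
  pow_le_pow_right₀ h e

theorem prim {Ω : Type u} [Fintype Ω] [DecidableEq Ω] (S : Subgroup (Perm Ω))
    (hS : IsPreprimitive S Ω) (h5 : 5 ≤ Fintype.card Ω) (hA : ¬ alternatingGroup Ω ≤ S) :
    2 * Nat.card (ConjClasses S) ≤ 2 ^ Fintype.card Ω := by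
  classical
  by_cases hl : 231 ≤ Fintype.card Ω
  · exact large S hl
  have p7 : Nat.Prime 7 := by norm_num
  have m3 : Monotone fun n : ℕ => A3 ^ n := prim_mono (by norm_num [A3])
  have m5 : Monotone fun n : ℕ => A5 ^ n := prim_mono (by norm_num [A5])
  have t := tele S
  obtain ⟨P7, l7, q7, t7⟩ := Bd1.top p7 bd7 S
  obtain ⟨P5, l5, q5, t5⟩ := Bd1.top Nat.prime_five bd5 S
  rw [sm_skip (N := 10) (by norm_num), sm_skip (N := 9) (by norm_num),
    sm_skip (N := 8) (by norm_num)] at t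
  rw [sm_skip (N := 6) (by norm_num)] at t7
  have b5 := prim_bd bd5 S
  suffices (2 : ℝ) * Nat.card (ConjClasses S) ≤ 2 ^ Fintype.card Ω by exact_mod_cast this
  have s5 := fun h => supp_gt Nat.prime_five hS hA h5 (Or.inr h) l5 q5
  have s7 := fun h => supp_gt p7 hS hA h5 (Or.inr h) l7 q7
  by_cases h25 : 25 ≤ Fintype.card Ω
  · have := num_mid _ h25 (by omega)
    have h1 := top5 q5 (s5 (by omega))
    have h2 := top7 q7 (s7 (by omega))
    linarith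
  by_cases h10 : 10 ≤ Fintype.card Ω
  · have h1 := crude1 (e := Fintype.card Ω / 5 - 1) Nat.prime_five m3 (by norm_num) q5
      (s5 (by omega))
    have h2 := crude1 (e := Fintype.card Ω / 7 - 1) p7 m5 (by norm_num) q7 (s7 (by omega))
    suffices ∀ n : ℕ, 10 ≤ n → n < 25 → (¬ 5 ^ (n / 5 - 1 + 2) ∣ n.factorial) ∧
        (¬ 7 ^ (n / 7 - 1 + 2) ∣ n.factorial) ∧ 2 * (A3 ^ n +
          (((5 : ℕ) : ℝ) ^ (n / 5 - 1) - 1) * A3 ^ (n - 2 * (5 - 1)) +
          (((7 : ℕ) : ℝ) ^ (n / 7 - 1) - 1) * A5 ^ (n - 2 * (7 - 1)) +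
          ((997 / 500 : ℝ) ^ n - A7 ^ n)) ≤ 2 ^ n by
      obtain ⟨a, b, c⟩ := this _ h10 (by omega)
      linarith [h1 a, h2 b]
    intro n a b
    interval_cases n <;> norm_num [A3, A5, A7, Nat.factorial]
  obtain ⟨P3, l3, q3, t3⟩ := Bd1.top Nat.prime_three bd3 S
  rw [sm_skip (N := 4) (by norm_num)] at t5
  have b3 := prim_bd bd3 S
  have m2 : Monotone fun n : ℕ => A2 ^ (n - n % 2) := fun a b e =>
    pow_le_pow_right₀ (by norm_num [A2]) (by omega)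
  have h3 := crude1 (e := Fintype.card Ω / 3 + Fintype.card Ω / 9 - 1) Nat.prime_three m2
    (by norm_num) q3 (supp_gt Nat.prime_three hS hA h5 (Or.inl rfl) l3 q3)
  have h7 := crude0 (e := Fintype.card Ω / 7) p7 m5 (by norm_num) q7
  have key : ∀ n : ℕ, 5 ≤ n → n < 10 → (¬ 3 ^ (n / 3 + n / 9 - 1 + 2) ∣ n.factorial) ∧
      (¬ 7 ^ (n / 7 + 1) ∣ n.factorial) ∧ (¬ 5 ^ 2 ∣ n.factorial) ∧ 2 * (A2 ^ (n - n % 2) +
        (((3 : ℕ) : ℝ) ^ (n / 3 + n / 9 - 1) - 1) * A2 ^ (n - 2 * (3 - 1) - (n - 2 * (3 - 1)) % 2) +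
        (if 8 ≤ n then 0 else 4 * A3 ^ (n - (5 - 1))) +
        (((7 : ℕ) : ℝ) ^ (n / 7) - 1) * A5 ^ (n - (7 - 1)) +
        ((997 / 500 : ℝ) ^ n - A7 ^ n)) ≤ 2 ^ n := by
    intro n a b
    interval_cases n <;> norm_num [A2, A3, A5, A7, Nat.factorial]
  obtain ⟨a, b, c, d⟩ := key _ h5 (by omega)
  split_ifs at d with h8
  · have h1 := crude1 (e := 0) Nat.prime_five m3 (by norm_num) q5 (s5 h8) c
    rw [pow_zero, sub_self, zero_mul] at h1
    linarith [h3 a, h7 b]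
  · have h1 := crude0 (e := 1) Nat.prime_five m3 (by norm_num) q5 c
    rw [pow_one, show ((5 : ℕ) : ℝ) - 1 = 4 by norm_num] at h1
    linarith [h3 a, h7 b]

end Cfsg.Lib.KP2
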