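import Cfsg.Agent.KP2.Defs
import Cfsg.Agent.Solv.ClassNumber

/-! Conjugacy classes of permutation groups: reduction to primitive groups. -/

set_option autoImplicit false
set_option linter.unusedSectionVars false

namespace Cfsg.Lib.KP2

open Subgroup MulAction Finset Equiv Cfsg.Lib.KPerm
open scoped Pointwise

universe u v

namespace Red

theorem congr {G H : Type*} [Group G] [Group H] (e : G ≃* H) :
    Nat.card (ConjClasses G) = Nat.card (ConjClasses H) := by
  refine Nat.card_congr ⟨ConjClasses.map e.toMonoidHom, ConjClasses.map e.symm.toMonoidHom,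
    fun c => ?_, fun c => ?_⟩ <;> obtain ⟨g, rfl⟩ := ConjClasses.mk_surjective c
  · exact congrArg ConjClasses.mk (e.symm_apply_apply g)
  · exact congrArg ConjClasses.mk (e.apply_symm_apply g)

/-- The bound in all degrees less than `n`. -/
def Bq (n : ℕ) : Prop :=
  ∀ (Ω : Type u) [Finite Ω] [Nonempty Ω], Nat.card Ω < n → ∀ S : Subgroup (Perm Ω),
    2 * Nat.card (ConjClasses S) ≤ 2 ^ Nat.card Ω

theorem Bq_eq_1' : type_of% @Bq.eq_1 := @Bq.eq_1

variable {n : ℕ} (hB : Bq.{u} n)
include hB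

theorem act (H : Type u) [Group H] [Finite H] (Ω : Type u) [MulAction H Ω] [Finite Ω] [Nonempty Ω]
    (h : Nat.card Ω < n) : 2 * Nat.card (ConjClasses H) ≤
      Nat.card (ConjClasses (toPermHom H Ω).ker) * 2 ^ Nat.card Ω := by
  have h1 := Solv.ClassNum.card_conjClasses_le_mul (toPermHom H Ω).ker
  rw [congr (QuotientGroup.quotientKerEquivRange (toPermHom H Ω))] at h1
  have h2 := hB Ω h (toPermHom H Ω).range
  nlinarith

theorem part {Ω : Type u} {I : Type v} [Finite Ω] (f : Ω → I) (T : Finset I)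
    (hT : ∀ i ∈ T, (∃ ω, f ω = i) ∧ Nat.card {ω // f ω = i} < n) :
    ∀ (H : Type u) [Group H] [Finite H] [MulAction H Ω], (∀ (h : H) ω, f (h • ω) = f ω) →
      (∀ h : H, (∀ ω, f ω ∈ T → h • ω = ω) → h = 1) →
      2 ^ T.card * Nat.card (ConjClasses H) ≤ 2 ^ ∑ i ∈ T, Nat.card {ω // f ω = i} := by
  classical
  induction T using Finset.induction_on with
  | empty =>
    intro H _ _ _ _ h2
    have : Subsingleton H := ⟨fun a b => by rw [h2 a (by simp), h2 b (by simp)]⟩
    have : Subsingleton (ConjClasses H) := ConjClasses.mk_surjective.subsingleton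
    simp
  | insert i T hi ih =>
    intro H _ _ _ h1 h2
    obtain ⟨⟨ω, hω⟩, lt⟩ := hT i (mem_insert_self i T)
    let A : SubMulAction H Ω := ⟨{ω | f ω = i}, fun c x hx => (h1 c x).trans hx⟩
    have : Nonempty A := ⟨⟨ω, hω⟩⟩
    have e1 := act hB H A lt
    have e2 := ih (fun j hj => hT j (mem_insert_of_mem hj)) (toPermHom H A).ker
      (fun h ω => h1 h ω) fun h e => Subtype.ext (h2 h fun ω hω => by
        rcases mem_insert.1 hω with c | c
        · exact congrArg Subtype.val (congrArg (fun s : Perm A => s ⟨ω, c⟩) h.2)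
        · exact e ω c)
    rw [card_insert_of_notMem hi, sum_insert hi, pow_succ, pow_add]
    change _ ≤ _ * 2 ^ Nat.card {ω // f ω = i} at e1
    calc _ = 2 ^ T.card * (2 * Nat.card (ConjClasses H)) := by ring
      _ ≤ 2 ^ T.card * (_ * 2 ^ Nat.card {ω // f ω = i}) := Nat.mul_le_mul_left _ e1
      _ = 2 ^ Nat.card {ω // f ω = i} * (2 ^ T.card * _) := by ring
      _ ≤ _ := Nat.mul_le_mul_left _ e2

theorem all {Ω : Type u} {I : Type v} [Finite Ω] [Finite I] (f : Ω → I) (hf : f.Surjective)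
    (hT : ∀ i, ∃ ω, f ω ≠ i) (hn : Nat.card Ω ≤ n) (H : Type u) [Group H] [Finite H]
    [MulAction H Ω] [FaithfulSMul H Ω] (h : ∀ (h : H) ω, f (h • ω) = f ω) :
    2 ^ Nat.card I * Nat.card (ConjClasses H) ≤ 2 ^ Nat.card Ω := by
  have := Fintype.ofFinite I
  have e := part hB f univ (fun i _ => ⟨hf i, by
    obtain ⟨ω, hω⟩ := hT i
    exact (Finite.card_subtype_lt (p := fun ω => f ω = i) hω).trans_le hn⟩) H h fun a ha =>
      eq_of_smul_eq_smul fun ω : Ω => by rw [ha ω (mem_univ _), one_smul]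
  rwa [card_univ, ← Nat.card_eq_fintype_card, ← Nat.card_sigma,
    Nat.card_congr (Equiv.sigmaFiberEquiv f)] at e

theorem step (Ω : Type u) [Finite Ω] [Nonempty Ω] (hn : Nat.card Ω ≤ n) (S : Subgroup (Perm Ω))
    (h : ¬ IsPreprimitive S Ω) : 2 * Nat.card (ConjClasses S) ≤ 2 ^ Nat.card Ω := by
  by_cases ht : IsPretransitive S Ω
  swap
  · have e := all hB (Quotient.mk (orbitRel S Ω)) Quotient.mk_surjective (fun i => ?_) hn S
      fun a ω => Quotient.sound (mem_orbit ω a)
    · refine le_trans (Nat.mul_le_mul_right _ ?_) e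
      have : Nonempty (Quotient (orbitRel S Ω)) := ⟨Quotient.mk _ (Classical.arbitrary Ω)⟩
      exact Nat.le_self_pow Nat.card_pos.ne' 2
    by_contra! c
    exact ht ⟨fun x y => Quotient.exact ((c y).trans (c x).symm)⟩
  obtain ⟨B, hb, nt⟩ : ∃ B : Set Ω, IsBlock S B ∧ ¬ IsTrivialBlock B := by
    by_contra! c
    exact h { ht with isTrivialBlock_of_isBlock := fun {B} hb => c B hb }
  obtain ⟨ns, nu⟩ := not_or.1 nt
  obtain ⟨a, ha, b, hb', ab⟩ := Set.not_subsingleton_iff.1 ns
  choose g hg using fun ω => ht.exists_smul_eq a ω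
  let f : Ω → orbit S B := fun ω => ⟨g ω • B, mem_orbit B _⟩
  have key : ∀ ω (s : S), ω ∈ s • B → f ω = ⟨s • B, mem_orbit B s⟩ := fun ω s hs => by
    refine Subtype.ext ?_
    by_contra c
    have := Set.smul_mem_smul_set (a := g ω) ha
    rw [hg] at this
    exact Set.disjoint_left.1 (hb c) this hs
  have mem : ∀ ω, ω ∈ (f ω).1 := fun ω => by
    have := Set.smul_mem_smul_set (a := g ω) ha
    rwa [hg] at this
  have hf : f.Surjective := by
    rintro ⟨_, s, rfl⟩
    exact ⟨s • a, key _ s (Set.smul_mem_smul_set ha)⟩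
  have eqv : ∀ (s : S) ω, f (s • ω) = s • f ω := fun s ω =>
    (key _ (s * g ω) (by rw [mul_smul]; exact Set.smul_mem_smul_set (mem ω))).trans
      (Subtype.ext (mul_smul s (g ω) B))
  have lt : Nat.card (orbit S B) < Nat.card Ω := by
    have := Fintype.ofFinite Ω
    have := Fintype.ofFinite (orbit S B)
    rw [Nat.card_eq_fintype_card, Nat.card_eq_fintype_card]
    exact Fintype.card_lt_of_surjective_not_injective f hf fun c => ab (c
      ((key a 1 (by simpa using ha)).trans (key b 1 (by simpa using hb')).symm))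
  have : Nonempty (orbit S B) := ⟨f a⟩
  have e1 := act hB S (orbit S B) (lt.trans_le hn)
  have e2 := all hB f hf (fun i => ?_) hn (toPermHom S (orbit S B)).ker fun k ω =>
    (eqv k ω).trans (congrArg (fun s : Perm (orbit S B) => s (f ω)) k.2)
  · exact e1.trans (by rwa [mul_comm])
  by_contra! c
  refine nu (Set.eq_univ_of_forall fun ω => ?_)
  have := mem ω
  rw [c ω, ← c a, key a 1 (by simpa using ha)] at this
  simpa using this

end Red

theorem red (hp : ∀ (Ω : Type u) [Fintype Ω] [DecidableEq Ω] [Nonempty Ω] (S : Subgroup (Perm Ω)),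
      IsPreprimitive S Ω → 2 * Nat.card (ConjClasses S) ≤ 2 ^ Fintype.card Ω)
    (Ω : Type u) [Fintype Ω] [DecidableEq Ω] [Nonempty Ω] (S : Subgroup (Perm Ω)) :
    2 * Nat.card (ConjClasses S) ≤ 2 ^ Fintype.card Ω := by
  have key : ∀ n, Red.Bq.{u} n := fun n => by
    induction n with
    | zero => exact fun _ _ _ h => absurd h (Nat.not_lt_zero _)
    | succ n ih =>
      intro Ω _ _ h S
      by_cases c : IsPreprimitive S Ω
      · classical
        have := Fintype.ofFinite Ω
        rw [Nat.card_eq_fintype_card (α := Ω)]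
        exact hp Ω S c
      · exact Red.step ih Ω (Nat.lt_succ_iff.1 h) S c
  rw [← Nat.card_eq_fintype_card]
  exact key _ Ω (Nat.lt_succ_self _) S

end Cfsg.Lib.KP2
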