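import Cfsg.Agent.KP2.Blk

/-! Weighted sums over the non-trivial elements of a coset of a `p`-group. -/

set_option autoImplicit false
set_option linter.unusedSectionVars false

namespace Cfsg.Lib.KP2

open Subgroup MulAction Finset Equiv Cfsg.Lib.KPerm

universe u v

section

variable {Ω : Type u} [Fintype Ω] [DecidableEq Ω]

theorem TL_pow_le {A : ℝ} {γ : ℕ → ℝ} (hA : 0 ≤ A) (hγ : Monotone γ) (hγ1 : A ≤ γ 1)
    (R : Subgroup (Perm Ω)) (T : Finset Ω) : A ^ T.card ≤ ∏ ω ∈ T, γ (os R ω) := by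
  rw [← prod_const]
  exact prod_le_prod (fun _ _ => hA) fun ω _ => hγ1.trans (hγ (os_pos R ω))

open Classical in
theorem TL_card (M : Subgroup (Perm Ω)) : (univ.filter (· ∈ M)).card = Nat.card M := by
  rw [← Nat.card_eq_finsetCard]
  exact Nat.card_congr (Equiv.subtypeEquivRight fun a => by simp)

open Classical in
theorem TL_in {M R0 : Subgroup (Perm Ω)} {x a0 : Perm Ω} (h0 : a0 ∈ M) (h1 : x * a0 ∈ R0)
    (f : Perm Ω → ℝ) :
    ∑ a ∈ (univ.filter (· ∈ M)).filter (fun a => x * a ∈ R0), f (x * a) =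
      ∑ b ∈ univ.filter (· ∈ M ⊓ R0), f (x * a0 * b) := by
  refine sum_nbij' (fun a => a0⁻¹ * a) (fun b => a0 * b) ?_ ?_ ?_ ?_ ?_
  · intro a ha
    simp only [mem_filter, mem_univ, true_and, Subgroup.mem_inf] at ha ⊢
    refine ⟨M.mul_mem (M.inv_mem h0) ha.1, ?_⟩
    have := R0.mul_mem (R0.inv_mem h1) ha.2
    rwa [show (x * a0)⁻¹ * (x * a) = a0⁻¹ * a by group] at this
  · intro b hb
    simp only [mem_filter, mem_univ, true_and, Subgroup.mem_inf] at hb ⊢
    exact ⟨M.mul_mem h0 hb.1, by rw [← mul_assoc]; exact R0.mul_mem h1 hb.2⟩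
  · intro a _
    simp
  · intro a _
    simp
  · intro a _
    rw [show x * a0 * (a0⁻¹ * a) = x * a by group]

open Classical in
theorem TL_out {M R0 : Subgroup (Perm Ω)} {x n : Perm Ω} (h0 : n ∈ M) (h1 : n ∈ R0)
    (f : Perm Ω → ℝ) :
    ∑ a ∈ (univ.filter (· ∈ M)).filter (fun a => ¬ x * a ∈ R0), f (x * a * n) =
      ∑ a ∈ (univ.filter (· ∈ M)).filter (fun a => ¬ x * a ∈ R0), f (x * a) := by
  refine sum_nbij' (fun a => a * n) (fun b => b * n⁻¹) ?_ ?_ ?_ ?_ ?_
  · intro a ha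
    simp only [mem_filter, mem_univ, true_and] at ha ⊢
    refine ⟨M.mul_mem ha.1 h0, fun h => ha.2 ?_⟩
    have := R0.mul_mem h (R0.inv_mem h1)
    rwa [show x * (a * n) * n⁻¹ = x * a by group] at this
  · intro a ha
    simp only [mem_filter, mem_univ, true_and] at ha ⊢
    refine ⟨M.mul_mem ha.1 (M.inv_mem h0), fun h => ha.2 ?_⟩
    have := R0.mul_mem h h1
    rwa [show x * (a * n⁻¹) * n = x * a by group] at this
  · intro a _
    simp
  · intro a _
    simp
  · intro a _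
    rw [mul_assoc]

theorem TL_Fw_one (O : Finset Ω) (y : Perm Ω) : Fw 1 1 O y = 1 := by
  simp [Fw]

theorem TL_Fw_split {A v : ℝ} {O T : Finset Ω} (hO : O ⊆ T) {y : Perm Ω}
    (h : ∀ β ∈ O, y β ≠ β) : Fw A v T y = v ^ O.card * Fw A v (T \ O) y := by
  rw [Fw, Fw, ← prod_sdiff hO, mul_comm, prod_congr rfl (g := fun _ => v) fun β hβ =>
    if_neg (h β hβ), prod_const]

theorem TL_Fw_triv {A v : ℝ} {T : Finset Ω} {y : Perm Ω} (h : ∀ β ∈ T, y β = β) :
    Fw A v T y = A ^ T.card := by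
  rw [Fw, prod_congr rfl (g := fun _ => A) fun β hβ => if_pos (h β hβ), prod_const]

theorem TL_fix {R : Subgroup (Perm Ω)} {β : Ω} (h : os R β = 1) {y : Perm Ω} (hy : y ∈ R) :
    y β = β := by
  have := (Nat.card_eq_one_iff_unique.1 h).1
  exact congrArg Subtype.val (Subsingleton.elim
    (⟨y β, ⟨⟨y, hy⟩, rfl⟩⟩ : orbit R β) ⟨β, mem_orbit_self β⟩)

theorem TL_eq {M : Subgroup (Perm Ω)} {O T : Finset Ω} (hS : Sp M T) {x a b : Perm Ω}
    (ha : a ∈ M) (hb : b ∈ M) (ha' : ∀ ω ∈ T \ O, (x * a) ω = ω)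
    (hb' : ∀ ω ∈ T \ O, (x * b) ω = ω) {ω : Ω} (hω : ω ∉ O) : a ω = b ω := by
  by_cases hT : ω ∈ T
  · have h1 := ha' ω (mem_sdiff.2 ⟨hT, hω⟩)
    have h2 := hb' ω (mem_sdiff.2 ⟨hT, hω⟩)
    rw [Perm.mul_apply] at h1 h2
    exact x.injective (h1.trans h2.symm)
  · rw [hS a ha ω hT, hS b hb ω hT]

open Classical in
theorem TL_K {p : ℕ} (hp : p.Prime) {v c : ℝ} {γ G : ℕ → ℝ}
    (hc : 0 ≤ c) (hc1 : c ≤ 1) (hcp : (p - 1) * c ≤ 1)
    (hG : HB.{u} p 1 1 G) (t1 : c * γ 1 ^ p + v ^ p ≤ c * γ p ^ p)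
    (t2 : ∀ j, 1 ≤ j → c * γ (p ^ j) ^ (p * p ^ j) + v ^ (p * p ^ j) * G (p * p ^ j) ≤
      c * γ (p * p ^ j) ^ (p * p ^ j))
    {T O B : Finset Ω} {R R0 M : Subgroup (Perm Ω)} {x : Perm Ω} (hR : IsPGroup p R)
    (hb : Blk p R R0 O B) (hM : M ≤ R) (hS : Sp M T) (hx : x ∈ R)
    (hD : ∀ a ∈ M, a ≠ 1 → p < a.support.card) :
    ∃ K : ℝ, c * γ B.card ^ O.card + v ^ O.card * K ≤ c * γ O.card ^ O.card ∧
      (((univ.filter (· ∈ M)).filter (fun a => ¬ x * a ∈ R0)).card : ℝ) * c ≤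
        K * Nat.card (M ⊓ fixingSubgroup (Perm Ω) (O : Set Ω) : Subgroup (Perm Ω)) ∧
      ((((univ.filter (· ∈ M)).filter (fun a => ¬ x * a ∈ R0)).filter
        (fun a => ∀ ω ∈ T \ O, (x * a) ω = ω)).card : ℝ) ≤ K := by
  obtain ⟨j, hj⟩ := hb.pw
  have hO := hb.cardO
  set N : Subgroup (Perm Ω) := M ⊓ fixingSubgroup (Perm Ω) (O : Set Ω) with hN
  set Out := (univ.filter (· ∈ M)).filter (fun a => ¬ x * a ∈ R0) with hOut
  have hOM : Out.card ≤ Nat.card M := by
    rw [← TL_card]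
    exact card_filter_le _ _
  rcases Nat.eq_zero_or_pos j with rfl | hj0
  · rw [pow_zero] at hj
    rw [hj, mul_one] at hO
    refine ⟨1, by rw [hj, hO, mul_one]; exact t1, ?_, ?_⟩
    · have h1 : M ⊓ R0 ≤ N := fun y hy => ⟨hy.1, (mem_fixingSubgroup_iff _).2 fun β hβ =>
        TL_fix ((hb.os0 β hβ).trans hj) hy.2⟩
      have h2 : Nat.card (M ⊓ R0 : Subgroup (Perm Ω)) ≤ Nat.card N := card_le_of_le h1
      have h3 : Out.card + Nat.card N ≤ p * Nat.card N := by
        by_cases hMR : M ≤ R0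
        · rw [inf_eq_left.2 hMR] at h2
          have := Nat.mul_le_mul_right (Nat.card N) hp.two_le
          omega
        · obtain ⟨y, hy, hy'⟩ := SetLike.not_le_iff_exists.1 hMR
          obtain ⟨i, hi⟩ := hb.pow y (hM hy) hy' x⁻¹ (R.inv_mem hx)
          have h4 : x * y ^ i ∈ R0 := by
            have := R0.inv_mem hi
            rwa [mul_inv_rev, inv_inv, inv_inv] at this
          have h5 := TL_in (M.pow_mem hy i) h4 fun _ => 1
          rw [sum_const, sum_const, TL_card, nsmul_one, nsmul_one, Nat.cast_inj] at h5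
          have h6 := card_filter_add_card_filter_not (s := univ.filter (· ∈ M))
            (fun a => x * a ∈ R0)
          rw [h5, TL_card, hb.idx M hM hMR] at h6
          obtain ⟨q, rfl⟩ := Nat.exists_eq_add_of_le hp.one_le
          have := Nat.mul_le_mul_left q h2
          change _ + Out.card = _ at h6
          nlinarith
      have h4 : (Out.card : ℝ) ≤ (p - 1) * Nat.card N := by
        have : ((Out.card + Nat.card N : ℕ) : ℝ) ≤ (p * Nat.card N : ℕ) := Nat.cast_le.2 h3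
        push_cast at this
        linarith
      calc (Out.card : ℝ) * c ≤ (p - 1) * Nat.card N * c := mul_le_mul_of_nonneg_right h4 hc
        _ = (p - 1) * c * Nat.card N := by ring
        _ ≤ 1 * Nat.card N := mul_le_mul_of_nonneg_right hcp (Nat.cast_nonneg _)
    · rw [Nat.cast_le_one]
      refine card_le_one.2 fun a ha b hb' => ?_
      simp only [hOut, mem_filter, mem_univ, true_and] at ha hb'
      by_contra hne
      have h1 := hD (a⁻¹ * b) (M.mul_mem (M.inv_mem ha.1.1) hb'.1.1)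
        (fun e => hne (inv_mul_eq_one.1 e))
      have h2 : (a⁻¹ * b).support ⊆ O := by
        intro ω hω
        by_contra hn
        apply Perm.mem_support.1 hω
        rw [Perm.mul_apply, ← TL_eq hS ha.1.1 hb'.1.1 ha.2 hb'.2 hn]
        simp
      have := card_le_card h2
      omega
  · have hne : O.Nonempty := hb.ne.mono hb.BO
    refine ⟨G O.card, by rw [hO, hj]; exact t2 j hj0, ?_, ?_⟩
    · have h1 := hG Ω R O (univ.filter (· ∈ M)) (Nat.card N) hR hb.ivO hne
        (fun y hy => hM (mem_filter.1 hy).2) fun y hy => by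
          rw [← Nat.card_eq_finsetCard]
          refine Nat.card_le_card_of_injective (fun z => ⟨y⁻¹ * z.1, ?_, ?_⟩) fun z z' e =>
            Subtype.ext (mul_left_cancel (Subtype.mk.inj e))
          · exact M.mul_mem (M.inv_mem (mem_filter.1 hy).2) (mem_filter.1 (mem_filter.1 z.2).1).2
          · refine (mem_fixingSubgroup_iff _).2 fun β hβ => ?_
            change y⁻¹ (z.1 β) = β
            rw [(mem_filter.1 z.2).2 β hβ]
            simp
      simp only [TL_Fw_one, sum_const, nsmul_one, TL_card] at h1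
      have h2 : (Out.card : ℝ) ≤ Nat.card M := Nat.cast_le.2 hOM
      calc (Out.card : ℝ) * c ≤ Out.card * 1 := mul_le_mul_of_nonneg_left hc1 (Nat.cast_nonneg _)
        _ ≤ _ := by linarith
    · have h1 := hG Ω R O (Out.filter (fun a => ∀ ω ∈ T \ O, (x * a) ω = ω)) 1 hR hb.ivO hne
        (fun y hy => hM (mem_filter.1 (mem_filter.1 (mem_filter.1 hy).1).1).2) fun y hy => by
          refine card_le_one.2 fun a ha b hb' => ?_
          simp only [hOut, mem_filter, mem_univ, true_and] at ha hb'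
          ext ω
          by_cases hn : ω ∈ O
          · rw [ha.2 ω hn, hb'.2 ω hn]
          · exact TL_eq hS ha.1.1.1 hb'.1.1.1 ha.1.2 hb'.1.2 hn
      simpa only [TL_Fw_one, sum_const, nsmul_one, Nat.cast_one, one_mul] using h1

end

theorem tl {p : ℕ} (hp : p.Prime) {A v c : ℝ} {γ G : ℕ → ℝ} (hA : 0 ≤ A) (hv : 0 ≤ v)
    (hc : 0 ≤ c) (hc1 : c ≤ 1) (hcp : (p - 1) * c ≤ 1) (hγ : Monotone γ) (hγ1 : A ≤ γ 1)
    (hG : HB.{u} p 1 1 G) (t1 : c * γ 1 ^ p + v ^ p ≤ c * γ p ^ p)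
    (t2 : ∀ j, 1 ≤ j → c * γ (p ^ j) ^ (p * p ^ j) + v ^ (p * p ^ j) * G (p * p ^ j) ≤
      c * γ (p * p ^ j) ^ (p * p ^ j))
    {Ω : Type u} [Fintype Ω] [DecidableEq Ω] (T : Finset Ω) (R M : Subgroup (Perm Ω))
    (x : Perm Ω) (hR : IsPGroup p R) (hT : Iv R T) (hM : M ≤ R) (hS : Sp M T) (hx : x ∈ R)
    (hD : ∀ a ∈ M, a ≠ 1 → p < a.support.card) :
    Ze A v T M x ≤ c * (∏ ω ∈ T, γ (os R ω) - A ^ T.card) := by
  classical
  induction hn : T.card + Nat.card R using Nat.strong_induction_on generalizing T R M x with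
  | _ n ih =>
  have hγ0 : ∀ (S : Subgroup (Perm Ω)) (ω : Ω), 0 ≤ γ (os S ω) := fun S ω =>
    hA.trans (hγ1.trans (hγ (os_pos S ω)))
  rcases T.eq_empty_or_nonempty with rfl | ⟨ω, hω⟩
  · simp [Ze]
  by_cases hfix : ∀ y ∈ R, y ω = ω
  · have hlt : (T.erase ω).card < T.card := card_erase_lt_of_mem hω
    have h1 := ih _ (by omega) (T.erase ω) R M x hR (fun y hy β hβ => mem_erase.2
      ⟨fun e => (mem_erase.1 hβ).1 (y.injective (e.trans (hfix y hy).symm)),
        hT y hy β (mem_erase.1 hβ).2⟩) hM (fun y hy β hβ => by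
          by_cases e : β = ω
          · rw [e, hfix y (hM hy)]
          · exact hS y hy β fun h => hβ (mem_erase.2 ⟨e, h⟩)) hx hD rfl
    have h2 : Ze A v T M x = A * Ze A v (T.erase ω) M x := by
      rw [Ze, Ze, mul_sum]
      refine sum_congr rfl fun a ha => ?_
      have h3 : (x * a) ω = ω := hfix _ (R.mul_mem hx (hM (mem_filter.1 ha).2))
      by_cases h4 : ∀ β ∈ T, (x * a) β = β
      · rw [if_pos h4, if_pos fun β hβ => h4 β (mem_erase.1 hβ).2, mul_zero]
      · rw [if_neg h4, if_neg, Fw, Fw, ← mul_prod_erase T _ hω, if_pos h3]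
        intro h5
        refine h4 fun β hβ => ?_
        by_cases e : β = ω
        · rw [e, h3]
        · exact h5 β (mem_erase.2 ⟨e, hβ⟩)
    rw [h2, ← mul_prod_erase T _ hω, os_fix hfix, ← card_erase_add_one hω, pow_succ]
    have h3 : 0 ≤ ∏ β ∈ T.erase ω, γ (os R β) := prod_nonneg fun β _ => hγ0 R β
    have h4 := mul_le_mul_of_nonneg_left h1 hA
    have h5 := mul_le_mul_of_nonneg_left (mul_le_mul_of_nonneg_right hγ1 h3) hc
    nlinarith
  push Not at hfix
  obtain ⟨R0, O, B, hb, hωO, hOT⟩ := exists_blk hp hR hfix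
  have hO : O ⊆ T := hOT T hT hω
  obtain ⟨K, k1, k2, k3⟩ := TL_K hp hc hc1 hcp hG t1 t2 (T := T) hR hb hM hS hx hD
  set N : Subgroup (Perm Ω) := M ⊓ fixingSubgroup (Perm Ω) (O : Set Ω) with hN
  set Out := (univ.filter (· ∈ M)).filter (fun a => ¬ x * a ∈ R0) with hOut
  set G' := ∏ β ∈ T \ O, γ (os R β) with hG'
  have hG0 : A ^ (T \ O).card ≤ G' := TL_pow_le hA hγ hγ1 R _
  have hA0 : 0 ≤ A ^ (T \ O).card := pow_nonneg hA _
  have hcard : (T \ O).card + O.card = T.card := card_sdiff_add_card_eq_card hO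
  have hOpos : 0 < O.card := card_pos.2 ⟨ω, hωO⟩
  have hNO : ∀ y ∈ N, ∀ β ∈ O, y β = β := fun y hy β hβ =>
    (mem_fixingSubgroup_iff _).1 hy.2 β hβ
  have hNR : N ≤ R0 := fun y hy => by
    by_contra h
    exact hb.fpf y (hM hy.1) h ω hωO (hNO y hy ω hωO)
  have hT' : Iv R (T \ O) := fun y hy β hβ => mem_sdiff.2 ⟨hT y hy β (mem_sdiff.1 hβ).1,
    fun h => (mem_sdiff.1 hβ).2 (by simpa using hb.ivO y⁻¹ (R.inv_mem hy) _ h)⟩
  have hS' : Sp N (T \ O) := fun y hy β hβ => by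
    by_cases e : β ∈ O
    · exact hNO y hy β e
    · exact hS y hy.1 β fun h => hβ (mem_sdiff.2 ⟨h, e⟩)
  let f : Finset Ω → Perm Ω → ℝ := fun S y => if ∀ β ∈ S, y β = β then 0 else Fw A v S y
  have hZ : ∀ (S : Finset Ω) (L : Subgroup (Perm Ω)) (z : Perm Ω),
      Ze A v S L z = ∑ a ∈ univ.filter (· ∈ L), f S (z * a) := fun S L z => by
    rw [Ze]
  have hIN : ∑ a ∈ (univ.filter (· ∈ M)).filter (fun a => x * a ∈ R0), f T (x * a) ≤
      c * (γ B.card ^ O.card * G' - A ^ T.card) := by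
    by_cases he : ∃ a0 ∈ M, x * a0 ∈ R0
    · obtain ⟨a0, h0, h1⟩ := he
      have hlt := hb.lt
      rw [TL_in h0 h1, ← hZ]
      refine (ih _ (by omega) T R0 (M ⊓ R0) (x * a0) (hR.to_le hb.le)
        (fun y hy => hT y (hb.le hy)) inf_le_right (fun y hy => hS y hy.1) h1
        (fun a ha => hD a ha.1) rfl).trans (mul_le_mul_of_nonneg_left (sub_le_sub_right ?_ _) hc)
      rw [← prod_sdiff hO, mul_comm, prod_congr rfl (g := fun _ => γ B.card) fun β hβ => by
        rw [hb.os0 β hβ], prod_const]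
      refine mul_le_mul_of_nonneg_left (prod_le_prod (fun β _ => hγ0 R0 β) fun β _ =>
        hγ (os_mono hb.le β)) (pow_nonneg ?_ _)
      exact hA.trans (hγ1.trans (hγ (card_pos.2 hb.ne)))
    · rw [filter_eq_empty_iff.2 fun a ha h => he ⟨a, (mem_filter.1 ha).2, h⟩, sum_empty]
      refine mul_nonneg hc (sub_nonneg.2 ?_)
      rw [← hcard, pow_add, mul_comm]
      have h1 : A ≤ γ B.card := hγ1.trans (hγ (card_pos.2 hb.ne))
      exact mul_le_mul (pow_le_pow_left₀ hA h1 _) hG0 hA0 (pow_nonneg (hA.trans h1) _)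
  have hS1 : ∑ a ∈ Out, f (T \ O) (x * a) ≤ K * (G' - A ^ (T \ O).card) := by
    have hNpos : (0 : ℝ) < Nat.card N := Nat.cast_pos.2 Nat.card_pos
    refine le_of_mul_le_mul_left ?_ hNpos
    calc (Nat.card N : ℝ) * ∑ a ∈ Out, f (T \ O) (x * a)
        = ∑ n ∈ univ.filter (· ∈ N), ∑ a ∈ Out, f (T \ O) (x * a * n) := by
          rw [sum_congr rfl (g := fun _ => ∑ a ∈ Out, f (T \ O) (x * a)) fun n hn =>
            TL_out (mem_filter.1 hn).2.1 (hNR (mem_filter.1 hn).2) _, sum_const, TL_card,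
            nsmul_eq_mul]
      _ = ∑ a ∈ Out, Ze A v (T \ O) N (x * a) := by
          rw [sum_comm]
          exact sum_congr rfl fun a _ => (hZ _ _ _).symm
      _ ≤ ∑ a ∈ Out, c * (G' - A ^ (T \ O).card) := sum_le_sum fun a ha =>
          ih _ (by omega) (T \ O) R N (x * a) hR hT' (inf_le_left.trans hM) hS'
            (R.mul_mem hx (hM (mem_filter.1 (mem_filter.1 ha).1).2)) (fun b hb => hD b hb.1) rfl
      _ = Out.card * c * (G' - A ^ (T \ O).card) := by rw [sum_const, nsmul_eq_mul, mul_assoc]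
      _ ≤ K * Nat.card N * (G' - A ^ (T \ O).card) :=
          mul_le_mul_of_nonneg_right k2 (sub_nonneg.2 hG0)
      _ = _ := by ring
  have hOUT : ∑ a ∈ Out, f T (x * a) ≤ v ^ O.card * (K * G') := by
    calc ∑ a ∈ Out, f T (x * a)
        ≤ ∑ a ∈ Out, v ^ O.card * (f (T \ O) (x * a) +
            if ∀ β ∈ T \ O, (x * a) β = β then A ^ (T \ O).card else 0) := by
          refine sum_le_sum fun a ha => ?_
          have h1 := hb.fpf _ (R.mul_mem hx (hM (mem_filter.1 (mem_filter.1 ha).1).2))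
            (mem_filter.1 ha).2
          have h2 : f T (x * a) = v ^ O.card * Fw A v (T \ O) (x * a) := by
            rw [← TL_Fw_split hO h1]
            exact if_neg fun h => h1 ω hωO (h ω hω)
          refine le_of_eq (h2.trans (congrArg _ ?_))
          by_cases h3 : ∀ β ∈ T \ O, (x * a) β = β
          · simp only [f]
            rw [if_pos h3, if_pos h3, zero_add, TL_Fw_triv h3]
          · simp only [f]
            rw [if_neg h3, if_neg h3, add_zero]
      _ = v ^ O.card * (∑ a ∈ Out, f (T \ O) (x * a) +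
            (Out.filter fun a => ∀ β ∈ T \ O, (x * a) β = β).card * A ^ (T \ O).card) := by
          rw [← mul_sum, sum_add_distrib, ← sum_filter, sum_const, nsmul_eq_mul]
      _ ≤ v ^ O.card * (K * G') := by
          refine mul_le_mul_of_nonneg_left ?_ (pow_nonneg hv _)
          have := mul_le_mul_of_nonneg_right k3 hA0
          linarith
  rw [hZ, ← sum_filter_add_sum_filter_not _ (fun a => x * a ∈ R0), ← prod_sdiff hO,
    prod_congr rfl (s₁ := O) (g := fun _ => γ O.card) fun β hβ => by rw [hb.osO β hβ], prod_const]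
  have h1 := mul_le_mul_of_nonneg_right k1 (hA0.trans hG0)
  change _ + ∑ a ∈ Out, f T (x * a) ≤ c * (G' * _ - _)
  nlinarith

end Cfsg.Lib.KP2
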