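import Cfsg.Agent.KP2.Step
import Cfsg.Agent.KP2.N2
import Cfsg.Agent.KP2.N3

/-! The primes from `11` on: a geometric tail and the telescoping sum. -/

set_option autoImplicit false
set_option linter.unusedSectionVars false

namespace Cfsg.Lib.KP2

open Subgroup MulAction Finset Equiv Cfsg.Lib.KPerm

universe u v

theorem Tele.le_pow (n : ℕ) : ((n + 17 : ℕ) : ℝ) ≤ (1194 / 1000) ^ (n + 17 - 1) := by
  induction n with
  | zero => norm_num
  | succ n ih =>
    rw [show n + 1 + 17 - 1 = (n + 17 - 1) + 1 by omega, pow_succ]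
    push_cast at ih ⊢
    have : (0 : ℝ) ≤ n := Nat.cast_nonneg n
    linarith

theorem Tele.tail (j : ℕ) :
    (997 / 500 - 7 / 100000 * (2 / 5) ^ j : ℝ) ^ (2 * j + 17) +
      (1194 / 1000 * (1042 / 1000)) ^ (2 * j + 17) ≤
      (997 / 500 - 7 / 100000 * (2 / 5) ^ (j + 1) : ℝ) ^ (2 * j + 17) := by
  have t0 : (0 : ℝ) < (2 / 5) ^ j := by positivity
  have t1 : ((2 : ℝ) / 5) ^ j ≤ 1 := pow_le_one₀ (by norm_num) (by norm_num)
  set t : ℝ := (2 / 5) ^ j with ht
  set A : ℝ := 997 / 500 - 7 / 100000 * t with hA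
  have hA0 : 199393 / 100000 ≤ A := by linarith
  have e : (997 / 500 - 7 / 100000 * (2 / 5) ^ (j + 1) : ℝ) = A + 21 / 500000 * t := by
    rw [pow_succ, hA]; ring
  rw [e]
  have h1 := pow_add_mul_le_add_pow (R := ℝ) (a := A) (b := 21 / 500000 * t) (by linarith)
    (by linarith) (2 * j + 17)
  rw [show 2 * j + 17 - 1 = 2 * j + 16 by omega] at h1
  refine le_trans ?_ h1
  rw [add_le_add_iff_left]
  have h2 : (((1194 : ℝ) / 1000 * (1042 / 1000)) ^ 2) ^ j ≤ (2 / 5 * A ^ 2) ^ j :=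
    pow_le_pow_left₀ (by norm_num) (by nlinarith) _
  rw [mul_pow (2 / 5 : ℝ), ← ht, ← pow_mul, ← pow_mul] at h2
  have h3 : ((199393 : ℝ) / 100000) ^ 16 ≤ A ^ 16 := pow_le_pow_left₀ (by norm_num) hA0 _
  have h4 : ((1194 : ℝ) / 1000 * (1042 / 1000)) ^ 17 ≤ 17 * (21 / 500000) * A ^ 16 :=
    le_trans (by norm_num) (mul_le_mul_of_nonneg_left h3 (by norm_num))
  have h5 : (0 : ℝ) ≤ j := Nat.cast_nonneg j
  have h6 : (0 : ℝ) ≤ A := by linarith
  calc ((1194 : ℝ) / 1000 * (1042 / 1000)) ^ (2 * j + 17)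
      = (1194 / 1000 * (1042 / 1000)) ^ (2 * j) * (1194 / 1000 * (1042 / 1000)) ^ 17 :=
        pow_add _ _ _
    _ ≤ (t * A ^ (2 * j)) * (17 * (21 / 500000) * A ^ 16) :=
        mul_le_mul h2 h4 (by positivity) (by positivity)
    _ = 17 * A ^ (2 * j + 16) * (21 / 500000 * t) := by rw [pow_add]; ring
    _ ≤ ((2 * j + 17 : ℕ) : ℝ) * A ^ (2 * j + 16) * (21 / 500000 * t) := by
        refine mul_le_mul_of_nonneg_right (mul_le_mul_of_nonneg_right ?_ (by positivity))
          (by positivity)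
        push_cast; linarith

theorem Tele.seq : ∃ al : ℕ → ℝ, al 11 = A7 ∧
    (∀ N, 0 ≤ al N ∧ al N ≤ 997 / 500 ∧ al N ≤ al (N + 1)) ∧
    ∀ p : ℕ, p.Prime → 11 ≤ p → ∃ w v : ℝ, 1 ≤ w ∧ 1 ≤ v ∧ (p : ℝ) ≤ w ^ (p - 1) ∧
      al p ≤ v ^ p ∧ al p ^ p + (w * v) ^ p ≤ al (p + 1) ^ p := by
  refine ⟨fun N => if N ≤ 11 then A7 else if N ≤ 13 then 199329 / 100000 else
    997 / 500 - 7 / 100000 * (2 / 5) ^ ((N - 16) / 2), if_pos le_rfl, fun N => ?_,
    fun p hp h11 => ?_⟩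
  · have t0 : ∀ j : ℕ, (0 : ℝ) < (2 / 5) ^ j := fun j => by positivity
    have t1 : ∀ j : ℕ, ((2 : ℝ) / 5) ^ j ≤ 1 := fun j => pow_le_one₀ (by norm_num) (by norm_num)
    have t2 : ((2 : ℝ) / 5) ^ ((N + 1 - 16) / 2) ≤ (2 / 5) ^ ((N - 16) / 2) :=
      pow_le_pow_of_le_one (by norm_num) (by norm_num) (by omega)
    have a1 := t0 ((N - 16) / 2)
    have a2 := t1 ((N - 16) / 2)
    have a3 := t1 ((N + 1 - 16) / 2)
    simp only [A7]
    split_ifs <;> first | omega | (refine ⟨?_, ?_, ?_⟩ <;> linarith)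
  · by_cases e11 : p = 11
    · subst e11
      refine ⟨1271 / 1000, 1065 / 1000, by norm_num, by norm_num, by norm_num, ?_, ?_⟩ <;>
        norm_num [A7]
    by_cases e13 : p = 13
    · subst e13
      refine ⟨1239 / 1000, 1055 / 1000, by norm_num, by norm_num, by norm_num, ?_, ?_⟩ <;>
        norm_num
    have h17 : 17 ≤ p := by
      by_contra hlt
      have : p = 12 ∨ p = 14 ∨ p = 15 ∨ p = 16 := by omega
      rcases this with rfl | rfl | rfl | rfl <;> norm_num at hp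
    obtain ⟨j, rfl⟩ : ∃ j, p = 2 * j + 17 := by
      have := hp.eq_two_or_odd
      exact ⟨(p - 17) / 2, by omega⟩
    refine ⟨1194 / 1000, 1042 / 1000, by norm_num, by norm_num, Tele.le_pow _, ?_, ?_⟩
    · simp only []
      rw [if_neg (by omega), if_neg (by omega), pow_add]
      have t0 : (0 : ℝ) < (2 / 5) ^ ((2 * j + 17 - 16) / 2) := by positivity
      have : (1 : ℝ) ≤ (1042 / 1000) ^ (2 * j) := one_le_pow₀ (by norm_num)
      nlinarith
    · simp only []
      rw [if_neg (by omega), if_neg (by omega), if_neg (by omega), if_neg (by omega),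
        show (2 * j + 17 - 16) / 2 = j by omega, show (2 * j + 17 + 1 - 16) / 2 = j + 1 by omega]
      exact Tele.tail j

theorem Tele.bd {al : ℕ → ℝ} (h11 : al 11 = A7)
    (hm : ∀ N, 0 ≤ al N ∧ al N ≤ 997 / 500 ∧ al N ≤ al (N + 1))
    (hp : ∀ p : ℕ, p.Prime → 11 ≤ p → ∃ w v : ℝ, 1 ≤ w ∧ 1 ≤ v ∧ (p : ℝ) ≤ w ^ (p - 1) ∧
      al p ≤ v ^ p ∧ al p ^ p + (w * v) ^ p ≤ al (p + 1) ^ p) (n : ℕ) :
    Bd1.{u, v} (n + 11) fun m => al (n + 11) ^ m := by
  induction n with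
  | zero => rw [zero_add, h11]; exact bd11
  | succ n ih =>
    rw [show n + 1 + 11 = n + 11 + 1 by omega]
    by_cases hq : (n + 11).Prime
    · obtain ⟨w, v, hw, hv, h1, h2, h3⟩ := hp _ hq (by omega)
      exact ih.es hq (hm _).1 (hm _).1 hw hv h1 h2 h3
    · exact (ih.skip hq).mono fun m => pow_le_pow_left₀ (hm _).1 (hm _).2.2 m

theorem Tele.unskip {N : ℕ} {W : ℕ → ℝ} (h : Bd1.{u, v} (N + 1) W) (hN : ¬ N.Prime) :
    Bd1.{u, v} N W := by
  intro Ω _ _ H _ _ ρ hρ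
  rw [← sm_skip hN]
  refine h Ω H ρ fun q hq hl => hρ q hq ?_
  have : q ≠ N := fun e => hN (e ▸ hq)
  omega

theorem bd_all (N : ℕ) : Bd1.{u, v} N fun n => (997 / 500 : ℝ) ^ n := by
  have up : ∀ {N : ℕ} {A : ℝ}, (Bd1.{u, v} N fun n => A ^ n) → 0 ≤ A → A ≤ 997 / 500 →
      Bd1.{u, v} N fun n => (997 / 500 : ℝ) ^ n := fun h h0 h1 =>
    h.mono fun m => pow_le_pow_left₀ h0 h1 m
  have b2 := up bd_two (by norm_num) (by norm_num)
  have b3 := up bd3' (by norm_num [A2]) (by norm_num [A2])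
  have b5 := up bd5 (by norm_num [A3]) (by norm_num [A3])
  have b7 := up bd7 (by norm_num [A5]) (by norm_num [A5])
  have b11 := up bd11 (by norm_num [A7]) (by norm_num [A7])
  have b1 := Tele.unskip (N := 1) b2 (by norm_num)
  have b0 := Tele.unskip (N := 0) b1 (by norm_num)
  have b4 := Tele.unskip (N := 4) b5 (by norm_num)
  have b6 := Tele.unskip (N := 6) b7 (by norm_num)
  have b10 := Tele.unskip (N := 10) b11 (by norm_num)
  have b9 := Tele.unskip (N := 9) b10 (by norm_num)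
  have b8 := Tele.unskip (N := 8) b9 (by norm_num)
  by_cases h : 11 ≤ N
  · obtain ⟨al, h11, hm, hp⟩ := Tele.seq
    obtain ⟨n, rfl⟩ : ∃ n, N = n + 11 := ⟨N - 11, by omega⟩
    exact up (Tele.bd h11 hm hp n) (hm _).1 (hm _).2.1
  · have : N ≤ 10 := by omega
    interval_cases N <;> assumption

theorem Tele.univ (H : Type v) [Group H] [Finite H] (k : ℕ) :
    Nat.card (Sm (Nat.card H + (k + 1)) H) = Nat.card (ConjClasses H) := by
  have h2 : Sm (Nat.card H + (k + 1)) H = Set.univ := Set.eq_univ_of_forall fun c => by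
    obtain ⟨g, rfl⟩ := ConjClasses.mk_surjective c
    refine ⟨g, rfl, fun q _ hd => ?_⟩
    have := Nat.le_of_dvd Nat.card_pos (hd.trans (orderOf_dvd_natCard g))
    omega
  rw [h2, Nat.card_univ]

theorem Tele.cyc_one {Ω : Type u} [Fintype Ω] [DecidableEq Ω] :
    Nat.card (Cyc (1 : Perm Ω)) = Fintype.card Ω := by
  rw [← Nat.card_eq_fintype_card]
  refine (Nat.card_eq_of_bijective (fun ω => (Quotient.mk'' ω : Cyc (1 : Perm Ω)))
    ⟨fun a b e => ?_, Quotient.mk''_surjective⟩).symm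
  have e' := orbitRel_apply.1 (Quotient.eq''.1 e)
  obtain ⟨⟨_, i, rfl⟩, h⟩ := e'
  change ((1 : Perm Ω) ^ i) b = a at h
  rw [one_zpow] at h
  exact h.symm

theorem tele {Ω : Type u} [Fintype Ω] [DecidableEq Ω] (S : Subgroup (Perm Ω)) :
    (Nat.card (ConjClasses S) : ℝ) ≤ Nat.card (Sm 11 S) +
      ((997 / 500 : ℝ) ^ Fintype.card Ω - A7 ^ Fintype.card Ω) := by
  classical
  obtain ⟨al, h11, hm, hp⟩ := Tele.seq
  have key : ∀ n : ℕ, (Nat.card (Sm (n + 11) S) : ℝ) ≤ Nat.card (Sm 11 S) +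
      (al (n + 11) ^ Fintype.card Ω - A7 ^ Fintype.card Ω) := by
    intro n
    induction n with
    | zero => rw [zero_add, h11, sub_self, add_zero]
    | succ n ih =>
      rw [show n + 1 + 11 = n + 11 + 1 by omega]
      by_cases hq : (n + 11).Prime
      · obtain ⟨w, v, hw, hv, h1, h2, h3⟩ := hp _ hq (by omega)
        obtain ⟨P, -, hP, hle⟩ := (Tele.bd.{u, u} h11 hm hp n).top hq S
        have := Fact.mk hq
        have h4 := sum_le hP (hm _).1 (hm _).1 hw hv h1 h2 h3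
        have h5 : ∑ x : P, al (n + 11) ^ Nat.card (Cyc (x : Perm Ω)) =
            ∑ x ∈ univ.filter (fun x => x ∈ P), al (n + 11) ^ Nat.card (Cyc x) :=
          (sum_subtype (univ.filter (fun x => x ∈ P)) (fun x => by simp)
            (fun x : Perm Ω => al (n + 11) ^ Nat.card (Cyc x))).symm
        have h6 : univ.filter (fun x => x ∈ P) =
            insert 1 (univ.filter (fun x : Perm Ω => x ∈ P ∧ x ≠ 1)) := by
          ext x
          simp only [mem_filter, mem_univ, true_and, mem_insert]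
          constructor
          · intro hx
            by_cases e : x = 1
            · exact Or.inl e
            · exact Or.inr ⟨hx, e⟩
          · rintro (rfl | hx)
            · exact P.one_mem
            · exact hx.1
        rw [h5, h6, sum_insert (by simp), Tele.cyc_one] at h4
        have h7 : (Nat.card (Sm (n + 11 + 1) S) : ℝ) ≤ Nat.card (Sm (n + 11) S) +
            ∑ x ∈ univ.filter (fun x : Perm Ω => x ∈ P ∧ x ≠ 1),
              al (n + 11) ^ Nat.card (Cyc x) := by convert hle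
        linarith
      · rw [sm_skip hq]
        have := pow_le_pow_left₀ (hm (n + 11)).1 (hm (n + 11)).2.2 (Fintype.card Ω)
        linarith
  have h1 := key (Nat.card S)
  rw [Tele.univ S 10] at h1
  have := pow_le_pow_left₀ (hm (Nat.card S + 11)).1 (hm (Nat.card S + 11)).2.1 (Fintype.card Ω)
  linarith

theorem large {Ω : Type u} [Fintype Ω] [DecidableEq Ω] (S : Subgroup (Perm Ω))
    (h : 231 ≤ Fintype.card Ω) : 2 * Nat.card (ConjClasses S) ≤ 2 ^ Fintype.card Ω := by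
  have h1 := bd_all.{u, u} (Nat.card S + (0 + 1)) Ω S S.subtype fun q hq _ hd => by
    rw [Subgroup.ker_subtype, Subgroup.card_bot] at hd
    exact hq.one_lt.ne' (Nat.dvd_one.1 hd)
  rw [Tele.univ S 0] at h1
  obtain ⟨m, hm⟩ : ∃ m, Fintype.card Ω = m + 231 := ⟨Fintype.card Ω - 231, by omega⟩
  rw [hm] at h1 ⊢
  have h2 : ((997 : ℝ) / 500) ^ m ≤ 2 ^ m := pow_le_pow_left₀ (by norm_num) (by norm_num) _
  have h3 : 2 * ((997 : ℝ) / 500) ^ 231 ≤ 2 ^ 231 := by norm_num
  have h4 : 2 * (Nat.card (ConjClasses S) : ℝ) ≤ 2 ^ (m + 231) :=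
    calc 2 * (Nat.card (ConjClasses S) : ℝ) ≤ 2 * (997 / 500) ^ (m + 231) := by linarith
      _ = (997 / 500) ^ m * (2 * (997 / 500) ^ 231) := by rw [pow_add]; ring
      _ ≤ 2 ^ m * 2 ^ 231 := mul_le_mul h2 h3 (by positivity) (by positivity)
      _ = 2 ^ (m + 231) := (pow_add _ _ _).symm
  exact_mod_cast h4

end Cfsg.Lib.KP2
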